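import Mathlib
import Cfsg.Agent.Lib.Helper23.BrauerFeit

set_option autoImplicit false

namespace Cfsg.Agent.Lib.Helper23.DefectOne

open Cfsg Cfsg.Agent.Lib.Helper2 Cfsg.Agent.Lib.Helper6 Cfsg.Agent.Lib.Lead
open Cfsg.Agent.Lib.Helper23.RegInner Cfsg.Agent.Lib.Helper23.BrauerFeit
open scoped ComplexConjugate

attribute [local instance] irrFintype

variable {G : Type*} [Group G] [Fintype G] {M : Ideal AlgInt}

/-- `2`-blocks of defect one: exactly two characters, equal on odd order elements and opposite on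
even order elements. -/
theorem two_block_defect_one (hM : IsPModular 2 M) {B : Set (IrrCharacter G)}
    (hB : IsPBlock M B) (hd : blockDefect 2 B = 1) :
    ∃ χ ψ : IrrCharacter G, χ ≠ ψ ∧ B = {χ, ψ} ∧
      (∀ g : G, ¬ 2 ∣ orderOf g → (ψ : G → ℂ) g = (χ : G → ℂ) g) ∧
      (∀ g : G, 2 ∣ orderOf g → (ψ : G → ℂ) g = - (χ : G → ℂ) g) := by
  classical
  haveI : Fact (Nat.Prime 2) := ⟨Nat.prime_two⟩
  have := IsPModular.isPrime hM
  obtain ⟨χ, hχ, h0⟩ := exists_height_zero 2 (IsPBlock.nonempty hB)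
  have hlt := ll_self_lt 2 hχ (by rw [h0, hd]; norm_num)
  rw [h0, hd] at hlt
  have hpos := ll_self_pos 2 χ
  have h1 : ll 2 χ χ = 1 := by
    norm_num at hlt
    omega
  have hsum := sum_ll_sq 2 hχ
  rw [h0, hd, h1, ← Finset.add_sum_erase _ _ (Finset.mem_univ χ), h1] at hsum
  have hsum' : ∑ ψ ∈ Finset.univ.erase χ, (ll 2 χ ψ) ^ 2 = 1 := by
    have h22 : ((2 ^ (1 - 0) : ℕ) : ℤ) = 2 := by norm_num
    rw [h22] at hsum
    linarith
  have hex : ∃ ψ ∈ Finset.univ.erase χ, ll 2 χ ψ ≠ 0 := by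
    by_contra hc
    push Not at hc
    rw [Finset.sum_eq_zero (fun ψ hψ => by rw [hc ψ hψ]; norm_num)] at hsum'
    norm_num at hsum'
  obtain ⟨ψ, hψ, hψ0⟩ := hex
  rw [← Finset.add_sum_erase _ _ hψ] at hsum'
  have h2 : (1 : ℤ) ≤ (ll 2 χ ψ) ^ 2 := by
    have : 0 < (ll 2 χ ψ) ^ 2 := by positivity
    omega
  have h3 : (0 : ℤ) ≤ ∑ ξ ∈ (Finset.univ.erase χ).erase ψ, (ll 2 χ ξ) ^ 2 :=
    Finset.sum_nonneg fun ξ _ => sq_nonneg _
  have h4 : (ll 2 χ ψ) ^ 2 = 1 := by omega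
  have h5 : ∑ ξ ∈ (Finset.univ.erase χ).erase ψ, (ll 2 χ ξ) ^ 2 = 0 := by omega
  have h6 : ∀ ξ : IrrCharacter G, ξ ≠ χ → ξ ≠ ψ → ll 2 χ ξ = 0 := by
    intro ξ hξ1 hξ2
    have h7 := (Finset.sum_eq_zero_iff_of_nonneg (fun ξ _ => sq_nonneg (ll 2 χ ξ))).1 h5 ξ
      (Finset.mem_erase.2 ⟨hξ2, Finset.mem_erase.2 ⟨hξ1, Finset.mem_univ _⟩⟩)
    exact pow_eq_zero_iff (two_ne_zero) |>.1 h7
  have hne : ψ ≠ χ := (Finset.mem_erase.1 hψ).1
  set e := (charDegree (χ : G → ℂ)).factorization 2 with he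
  have ha : (Nat.card G).factorization 2 = e + 1 := by
    rw [height_eq] at h0
    rw [defect_eq] at hd
    have := smin_le 2 hχ
    omega
  -- the expansion
  have hexp : ∀ g : G, tilde 2 (χ : G → ℂ) g =
      ((2 ^ e : ℕ) : ℂ) * ((χ : G → ℂ) g + (ll 2 χ ψ : ℂ) * (ψ : G → ℂ) g) := by
    intro g
    rw [tilde_eq_sum]
    simp only [Finset.sum_apply, Pi.smul_apply, smul_eq_mul]
    rw [← Finset.add_sum_erase _ _ (Finset.mem_univ χ), ← Finset.add_sum_erase _ _ hψ,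
      Finset.sum_eq_zero, add_zero, ll_spec 2 χ χ, ll_spec 2 χ ψ, h1]
    · push_cast
      ring
    · intro ξ hξ
      have h8 := Finset.mem_erase.1 hξ
      rw [ll_spec 2 χ ξ, h6 ξ (Finset.mem_erase.1 h8.2).1 h8.1]
      simp
  have h2e : ((2 ^ e : ℕ) : ℂ) ≠ 0 := by
    have : (2 ^ e : ℕ) ≠ 0 := by positivity
    exact_mod_cast this
  have hreg : ∀ g : G, ¬ 2 ∣ orderOf g →
      2 * (χ : G → ℂ) g = (χ : G → ℂ) g + (ll 2 χ ψ : ℂ) * (ψ : G → ℂ) g := by
    intro g hg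
    have h9 := hexp g
    unfold tilde at h9
    rw [if_neg hg, ha, pow_succ] at h9
    push_cast at h9 h2e
    apply mul_left_cancel₀ h2e
    rw [← h9]
    ring
  have hsing : ∀ g : G, 2 ∣ orderOf g →
      0 = (χ : G → ℂ) g + (ll 2 χ ψ : ℂ) * (ψ : G → ℂ) g := by
    intro g hg
    have h9 := hexp g
    unfold tilde at h9
    rw [if_pos hg] at h9
    exact (mul_eq_zero.1 h9.symm).resolve_left h2e |>.symm
  have hε : ll 2 χ ψ = 1 := by
    have h10 : ll 2 χ ψ = 1 ∨ ll 2 χ ψ = -1 := sq_eq_one_iff.1 h4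
    rcases h10 with h10 | h10
    · exact h10
    · exfalso
      have h11 := hreg 1 (by rw [orderOf_one]; norm_num)
      rw [h10, ← Cfsg.Agent.Lib.Helper24.charDegree_cast (IsIrrCharacter.isCharacter χ.2),
        ← Cfsg.Agent.Lib.Helper24.charDegree_cast (IsIrrCharacter.isCharacter ψ.2)] at h11
      have h12 : ((charDegree (χ : G → ℂ) + charDegree (ψ : G → ℂ) : ℕ) : ℂ) = 0 := by
        push_cast at h11 ⊢
        linear_combination h11
      have h13 : charDegree (χ : G → ℂ) + charDegree (ψ : G → ℂ) = 0 := by exact_mod_cast h12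
      have := Cfsg.Agent.Lib.Helper24.charDegree_pos χ.2
      omega
  rw [hε] at hreg hsing
  refine ⟨χ, ψ, hne.symm, ?_, ?_, ?_⟩
  · ext ξ
    simp only [Set.mem_insert_iff, Set.mem_singleton_iff]
    constructor
    · intro hξ
      by_contra hc
      push Not at hc
      exact (ll_ne_zero_of_height_zero_left 2 hM hB hχ h0 hξ).1 (h6 ξ hc.1 hc.2)
    · rintro (rfl | rfl)
      · exact hχ
      · by_contra hc
        apply hψ0
        have h11 := nn_eq_zero_of_not_mem 2 hM hB hχ hc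
        rw [ll_spec] at h11
        exact (mul_eq_zero.1 h11).resolve_left (pow_pos' 2 _).ne'
  · intro g hg
    have := hreg g hg
    push_cast at this
    linear_combination -this
  · intro g hg
    have := hsing g hg
    push_cast at this
    linear_combination -this

end Cfsg.Agent.Lib.Helper23.DefectOne
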