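import Mathlib
import Cfsg.Prelude.Def_Blocks
import Cfsg.Agent.Lib.Helper2.Klein
import Cfsg.Agent.Lib.Helper8.FourSub
import Cfsg.Agent.Lib.Helper6.PrincipalCol
import Cfsg.Agent.Lib.Helper6.KleinBlock2
import Cfsg.Agent.Lib.Helper24.ClassCount

/-!
# Brauer's order formula for groups with Klein four Sylow `2`-subgroups: tools
-/

set_option autoImplicit false

namespace Cfsg.Agent.Lib.Helper23.KleinOrder

open Cfsg Cfsg.Agent.Lib.Helper6 Cfsg.Agent.Lib.Helper2
open scoped Classical ComplexConjugate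

attribute [local instance] irrFintype



theorem card_sylow_four {G : Type*} [Group G] [Finite G] {g₀ : ℕ} (hg₀ : Odd g₀)
    (hG : Nat.card G = 4 * g₀) (P : Sylow 2 G) : Nat.card (P : Subgroup G) = 4 := by
  have h1 := P.card_eq_multiplicity
  have hg0 : g₀ ≠ 0 := by
    rintro rfl
    simp at hg₀
  have h2 : (Nat.card G).factorization 2 = 2 := by
    rw [hG, Nat.factorization_mul (by norm_num) hg0]
    have h3 : (4 : ℕ).factorization 2 = 2 := by
      rw [show (4 : ℕ) = 2 ^ 2 by norm_num, Nat.Prime.factorization_pow Nat.prime_two]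
      simp
    have h4 : g₀.factorization 2 = 0 := by
      apply Nat.factorization_eq_zero_of_not_dvd
      exact hg₀.not_two_dvd_nat
    simp [h3, h4]
  rw [h1, h2]; norm_num

theorem not_normalizer_le {G : Type*} [Group G] [Finite G] {g₀ : ℕ} (hg₀ : Odd g₀)
    (hG : Nat.card G = 4 * g₀) (hnc : ¬ ∃ N : Subgroup G, N.Normal ∧ Nat.card N = g₀)
    (P : Sylow 2 G) : ¬ Subgroup.normalizer ((P : Subgroup G) : Set G) ≤
      Subgroup.centralizer ((P : Subgroup G) : Set G) := by
  intro h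
  apply hnc
  have hc := MonoidHom.ker_transferSylow_isComplement' P h
  refine ⟨(MonoidHom.transferSylow P h).ker, inferInstance, ?_⟩
  have h1 := hc.card_mul_card
  rw [card_sylow_four hg₀ hG P, hG] at h1
  omega

theorem klein_of_no_complement {G : Type*} [Group G] [Finite G] {g₀ : ℕ} (hg₀ : Odd g₀)
    (hG : Nat.card G = 4 * g₀) (hnc : ¬ ∃ N : Subgroup G, N.Normal ∧ Nat.card N = g₀)
    (P : Sylow 2 G) : IsKleinFour (P : Subgroup G) ∧
      ∀ s t : G, orderOf s = 2 → orderOf t = 2 → IsConj s t := by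
  have hcard := card_sylow_four hg₀ hG P
  have hN := not_normalizer_le hg₀ hG hnc P
  have hncyc : ¬ IsCyclic (P : Subgroup G) := by
    intro hc
    apply hN
    apply IsCyclic.normalizer_le_centralizer _ hc
    rw [Nat.minFac_eq_two_iff, hG]
    exact ⟨2 * g₀, by ring⟩
  have hP : IsKleinFour (P : Subgroup G) := by
    apply Cfsg.Agent.Lib.Helper8.isKleinFour_of_card_of_sq _ hcard
    intro t ht
    have h1 : orderOf (⟨t, ht⟩ : (P : Subgroup G)) ∣ 4 := by
      rw [← hcard]; exact orderOf_dvd_natCard _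
    have h2 : orderOf (⟨t, ht⟩ : (P : Subgroup G)) ≠ 4 := by
      intro h4
      apply hncyc
      apply isCyclic_of_orderOf_eq_card (⟨t, ht⟩ : (P : Subgroup G))
      rw [h4, hcard]
    have h3 : orderOf (⟨t, ht⟩ : (P : Subgroup G)) ∣ 2 := by
      have h5 : orderOf (⟨t, ht⟩ : (P : Subgroup G)) ∈ Nat.divisors 4 := by
        rw [Nat.mem_divisors]; exact ⟨h1, by norm_num⟩
      have h6 : Nat.divisors 4 = {1, 2, 4} := by decide
      rw [h6] at h5
      simp only [Finset.mem_insert, Finset.mem_singleton] at h5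
      rcases h5 with h | h | h
      · rw [h]; norm_num
      · rw [h]
      · exact absurd h h2
    have h4 := orderOf_dvd_iff_pow_eq_one.mp h3
    have h5 := congrArg Subtype.val h4
    simpa [pow_two] using h5
  refine ⟨hP, ?_⟩
  rcases klein_dichotomy P hP with h | h
  · intro s t hs ht
    obtain ⟨a, ha, ha1, hsa⟩ := klein_exists_conj P hP hs
    obtain ⟨b, hb, hb1, htb⟩ := klein_exists_conj P hP ht
    exact hsa.trans ((h a ha b hb ha1 hb1).trans htb.symm)
  · exfalso
    apply hN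
    intro n hn
    rw [Subgroup.mem_centralizer_iff]
    intro x hx
    have hx' : x ∈ P := hx
    have h1 : n * x * n⁻¹ ∈ P := (Subgroup.mem_normalizer_iff.mp hn x).mp hx'
    have h2 := h x hx' _ h1 (isConj_iff.mpr ⟨n, rfl⟩)
    exact (mul_inv_eq_iff_eq_mul.mp h2.symm).symm




section cnt

variable {H : Type*} [Group H]

theorem sq_of_two {x : H} (hx : orderOf x = 2) : x * x = 1 := by
  have := pow_orderOf_eq_one x
  rwa [hx, pow_two] at this

theorem inv_of_two {x : H} (hx : orderOf x = 2) : x⁻¹ = x :=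
  inv_eq_of_mul_eq_one_left (sq_of_two hx)

/-- square-root trick: two involutions congruent modulo a subgroup of odd order are conjugate. -/
theorem isConj_of_mul_mem [Finite H] (O : Subgroup H) (hO : Odd (Nat.card O)) {a x : H}
    (ha : orderOf a = 2) (hx : orderOf x = 2) (h : x * a ∈ O) : IsConj a x := by
  set k := x * a with hk
  have ha2 := sq_of_two ha
  have hx2 := sq_of_two hx
  have hai := inv_of_two ha
  have hodd : Odd (orderOf k) := by
    have h1 : orderOf k ∣ Nat.card O := by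
      have := orderOf_dvd_natCard (⟨k, h⟩ : O)
      rwa [Subgroup.orderOf_mk] at this
    exact hO.of_dvd_nat h1
  obtain ⟨j, hj⟩ := hodd
  have hinv : a * k * a⁻¹ = k⁻¹ := by
    rw [hai, hk]
    apply eq_inv_of_mul_eq_one_left
    calc a * (x * a) * a * (x * a) = a * x * (a * a) * x * a := by group
      _ = a * (x * x) * a := by rw [ha2]; group
      _ = 1 := by rw [hx2, mul_one, ha2]
  set u := k ^ (j + 1) with hu
  have huu : u * u = k := by
    rw [hu, ← pow_add, show j + 1 + (j + 1) = (2 * j + 1) + 1 by ring, ← hj, pow_succ,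
      pow_orderOf_eq_one, one_mul]
  have huinv : a * u * a⁻¹ = u⁻¹ := by
    rw [hu, ← conj_pow, hinv, inv_pow]
  rw [isConj_iff]
  refine ⟨u, ?_⟩
  have h1 : a * u⁻¹ = u * a := by
    have h2 : a * u⁻¹ * a⁻¹ = u := by
      have := congrArg (·⁻¹) huinv
      simpa [mul_assoc] using this
    calc a * u⁻¹ = (a * u⁻¹ * a⁻¹) * a := by group
      _ = u * a := by rw [h2]
  calc u * a * u⁻¹ = u * (a * u⁻¹) := by group
    _ = (u * u) * a := by rw [h1]; group
    _ = x := by rw [huu, hk, mul_assoc, ha2, mul_one]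

theorem orderOf_of_isConj {a x : H} (h : IsConj a x) : orderOf x = orderOf a := by
  obtain ⟨c, rfl⟩ := isConj_iff.mp h
  have : c * a * c⁻¹ = MulAut.conj c a := by simp
  rw [this, MulEquiv.orderOf_eq]

theorem count_pairs [Fintype H] (O : Subgroup H) [O.Normal] (hO : Odd (Nat.card O))
    (hidx : O.index = 4) {z t : H} (hz : orderOf z = 2) (ht : orderOf t = 2)
    (hzc : ∀ h : H, h * z = z * h) (hzt : z ≠ t) :
    ∑ x : H, ∑ y : H, (if orderOf x = 2 ∧ orderOf y = 2 ∧ x * y * z ∈ O then (1 : ℂ) else 0) =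
      2 * ((Subgroup.centralizer ({t} : Set H)).index : ℂ) ^ 2 := by
  have hz2 := sq_of_two hz
  have ht2 := sq_of_two ht
  have hnO : ∀ x : H, orderOf x = 2 → x ∉ O := by
    intro x hx hxO
    have h1 : orderOf x ∣ Nat.card O := by
      have := orderOf_dvd_natCard (⟨x, hxO⟩ : O)
      rwa [Subgroup.orderOf_mk] at this
    rw [hx] at h1
    exact hO.not_two_dvd_nat h1
  have htz : orderOf (t * z) = 2 := by
    apply orderOf_eq_prime
    · rw [pow_two]
      calc t * z * (t * z) = t * (z * t) * z := by group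
        _ = t * (t * z) * z := by rw [hzc t]
        _ = (t * t) * (z * z) := by group
        _ = 1 := by rw [ht2, hz2, one_mul]
    · intro h
      apply hzt
      have : t * z = t * t := by rw [h, ht2]
      exact mul_left_cancel this
  have hcardQ : Nat.card (H ⧸ O) = 2 ^ 2 := by
    rw [← Subgroup.index_eq_card, hidx]; norm_num
  have hcomm : ∀ a b : H ⧸ O, a * b = b * a :=
    (IsPGroup.isMulCommutative_of_card_eq_prime_sq hcardQ).is_comm.comm
  have q1 : ∀ x : H, orderOf x = 2 → (x : H ⧸ O) ≠ 1 := by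
    intro x hx h
    exact hnO x hx ((QuotientGroup.eq_one_iff x).mp h)
  have qsq : ∀ x : H, orderOf x = 2 → (x : H ⧸ O) * (x : H ⧸ O) = 1 := by
    intro x hx
    rw [← QuotientGroup.mk_mul, sq_of_two hx, QuotientGroup.mk_one]
  have qtz : ((t * z : H) : H ⧸ O) = (t : H ⧸ O) * (z : H ⧸ O) := QuotientGroup.mk_mul _ _ _
  have n1 : (z : H ⧸ O) ≠ (t : H ⧸ O) := by
    intro h
    apply q1 _ htz
    rw [qtz, h, qsq t ht]
  have n2 : ((t * z : H) : H ⧸ O) ≠ (t : H ⧸ O) := by
    intro h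
    apply q1 _ hz
    rw [qtz] at h
    exact mul_eq_left.mp h
  have n3 : ((t * z : H) : H ⧸ O) ≠ (z : H ⧸ O) := by
    intro h
    apply q1 _ ht
    rw [qtz] at h
    exact mul_eq_right.mp h
  have hQ : ∀ c : H ⧸ O, c = 1 ∨ c = (z : H ⧸ O) ∨ c = (t : H ⧸ O) ∨ c = ((t * z : H) : H ⧸ O) := by
    intro c
    let _ : Fintype (H ⧸ O) := Fintype.ofFinite _
    have hS : ({1, (z : H ⧸ O), (t : H ⧸ O), ((t * z : H) : H ⧸ O)} : Finset (H ⧸ O)).card = 4 := by
      rw [Finset.card_insert_of_notMem, Finset.card_insert_of_notMem,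
        Finset.card_insert_of_notMem, Finset.card_singleton]
      · simpa using n2.symm
      · simp only [Finset.mem_insert, Finset.mem_singleton, not_or]
        exact ⟨n1, n3.symm⟩
      · simp only [Finset.mem_insert, Finset.mem_singleton, not_or]
        exact ⟨(q1 z hz).symm, (q1 t ht).symm, (q1 _ htz).symm⟩
    have hU := Finset.eq_univ_of_card _ (hS.trans (by
      rw [← Nat.card_eq_fintype_card, hcardQ]; norm_num))
    have hc := Finset.mem_univ c
    rw [← hU] at hc
    simpa using hc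
  have hconj : ∀ a x : H, IsConj a x → (x : H ⧸ O) = (a : H ⧸ O) := by
    intro a x h
    obtain ⟨c, rfl⟩ := isConj_iff.mp h
    rw [QuotientGroup.mk_mul, QuotientGroup.mk_mul, hcomm (c : H ⧸ O), mul_assoc,
      ← QuotientGroup.mk_mul, mul_inv_cancel, QuotientGroup.mk_one, mul_one]
  have hconj' : ∀ a x : H, orderOf a = 2 → orderOf x = 2 → (x : H ⧸ O) = (a : H ⧸ O) →
      IsConj a x := by
    intro a x ha hx h
    apply isConj_of_mul_mem O hO ha hx
    rw [← QuotientGroup.eq_one_iff, QuotientGroup.mk_mul, h, qsq a ha]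
  have key : ∀ x y : H, (if orderOf x = 2 ∧ orderOf y = 2 ∧ x * y * z ∈ O then (1 : ℂ) else 0) =
      classInd t x * classInd (t * z) y + classInd (t * z) x * classInd t y := by
    intro x y
    simp only [classInd_apply]
    by_cases h : orderOf x = 2 ∧ orderOf y = 2 ∧ x * y * z ∈ O
    · rw [if_pos h]
      obtain ⟨hx, hy, hxy⟩ := h
      rw [← QuotientGroup.eq_one_iff, QuotientGroup.mk_mul, QuotientGroup.mk_mul] at hxy
      rcases hQ (x : H ⧸ O) with h1 | h1 | h1 | h1
      · exact absurd h1 (q1 x hx)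
      · exfalso
        apply q1 y hy
        rw [h1, hcomm (z : H ⧸ O), mul_assoc, qsq z hz, mul_one] at hxy
        exact hxy
      · have c1 : IsConj t x := hconj' t x ht hx h1
        have c2 : IsConj (t * z) y := by
          apply hconj' _ y htz hy
          rw [qtz]
          rw [h1] at hxy
          have : (y : H ⧸ O) = (t : H ⧸ O)⁻¹ * (z : H ⧸ O)⁻¹ := by
            rw [eq_inv_mul_iff_mul_eq, eq_inv_iff_mul_eq_one]; exact hxy
          rw [this, inv_eq_of_mul_eq_one_left (qsq t ht), inv_eq_of_mul_eq_one_left (qsq z hz)]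
        have c3 : ¬ IsConj (t * z) x := by
          intro hc
          exact n2 ((hconj _ _ hc).symm.trans h1)
        rw [if_pos c1, if_pos c2, if_neg c3]; ring
      · have c1 : IsConj (t * z) x := hconj' _ x htz hx h1
        have c2 : IsConj t y := by
          apply hconj' _ y ht hy
          rw [h1, qtz] at hxy
          have h5 : (t : H ⧸ O) * (z : H ⧸ O) * (y : H ⧸ O) * (z : H ⧸ O) =
              (t : H ⧸ O) * (y : H ⧸ O) * ((z : H ⧸ O) * (z : H ⧸ O)) := by
            rw [mul_assoc (t : H ⧸ O), hcomm (z : H ⧸ O) (y : H ⧸ O)]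
            simp only [mul_assoc]
          rw [h5, qsq z hz, mul_one] at hxy
          have : (y : H ⧸ O) = (t : H ⧸ O)⁻¹ := by
            rw [eq_inv_iff_mul_eq_one, hcomm]; exact hxy
          rw [this, inv_eq_of_mul_eq_one_left (qsq t ht)]
        have c3 : ¬ IsConj t x := by
          intro hc
          exact n2 (h1.symm.trans (hconj _ _ hc))
        rw [if_pos c1, if_pos c2, if_neg c3]; ring
    · rw [if_neg h]
      have c1 : ¬ (IsConj t x ∧ IsConj (t * z) y) := by
        rintro ⟨h1, h2⟩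
        apply h
        refine ⟨(orderOf_of_isConj h1).trans ht, (orderOf_of_isConj h2).trans htz, ?_⟩
        rw [← QuotientGroup.eq_one_iff, QuotientGroup.mk_mul, QuotientGroup.mk_mul, hconj _ _ h1,
          hconj _ _ h2, qtz, ← mul_assoc, qsq t ht, one_mul, qsq z hz]
      have c2 : ¬ (IsConj (t * z) x ∧ IsConj t y) := by
        rintro ⟨h1, h2⟩
        apply h
        refine ⟨(orderOf_of_isConj h1).trans htz, (orderOf_of_isConj h2).trans ht, ?_⟩
        rw [← QuotientGroup.eq_one_iff, QuotientGroup.mk_mul, QuotientGroup.mk_mul, hconj _ _ h1,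
          hconj _ _ h2, qtz, hcomm (t : H ⧸ O), mul_assoc (z : H ⧸ O), qsq t ht, mul_one, qsq z hz]
      have e1 : (if IsConj t x then (1 : ℂ) else 0) * (if IsConj (t * z) y then (1 : ℂ) else 0) = 0 := by
        by_cases d1 : IsConj t x
        · rw [if_neg (fun h2 => c1 ⟨d1, h2⟩), mul_zero]
        · rw [if_neg d1, zero_mul]
      have e2 : (if IsConj (t * z) x then (1 : ℂ) else 0) * (if IsConj t y then (1 : ℂ) else 0) = 0 := by
        by_cases d1 : IsConj (t * z) x
        · rw [if_neg (fun h2 => c2 ⟨d1, h2⟩), mul_zero]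
        · rw [if_neg d1, zero_mul]
      rw [e1, e2, add_zero]
  simp_rw [key]
  have hcen : Subgroup.centralizer ({t * z} : Set H) = Subgroup.centralizer ({t} : Set H) := by
    ext g
    rw [Subgroup.mem_centralizer_singleton_iff, Subgroup.mem_centralizer_singleton_iff]
    constructor
    · intro h
      have : g * t * z = t * g * z := by
        rw [mul_assoc, h, mul_assoc t z g, ← hzc g, mul_assoc]
      exact mul_right_cancel this
    · intro h
      rw [← mul_assoc, h, mul_assoc, hzc g, mul_assoc]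
  simp_rw [Finset.sum_add_distrib, ← Finset.mul_sum, ← Finset.sum_mul, sum_classInd, hcen]
  ring

end cnt





section avg

variable {G : Type*} [Group G] [Fintype G] {M : Ideal AlgInt} {p : ℕ}

/-- The principal block part of a class function at a `p`-element `z` whose centralizer has a
normal `p`-complement is the average over the coset `O_{p'}(C(z)) z`. -/
theorem principal_part_eq_avg [Fact p.Prime] (hM : IsPModular p M) {z : G}
    (hz : ∃ k : ℕ, orderOf z = p ^ k) (hidx : ∃ k : ℕ, (pPrimeCore p (cen z)).index = p ^ k)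
    {F : G → ℂ} (hF : IsClassFunction G F) :
    ∑ ζ : IrrCharacter G, (principalBlock M G).indicator 1 ζ *
        (classInner F (ζ : G → ℂ) * (ζ : G → ℂ) z) =
      ∑ k : cen z, eSub (pPrimeCore p (cen z)) k * F ((k : G) * z) := by
  have hp : p.Prime := hM.1
  have hzmem : z ∈ cen z := Subgroup.mem_centralizer_singleton_iff.mpr rfl
  obtain ⟨j, hj⟩ := hidx
  have hnorm := Cfsg.Agent.Lib.Helper23.pPrimeCore_normal p (cen z)
  have hcoef : coef ((principalBlock M (cen z)).indicator 1) = eSub (pPrimeCore p (cen z)) := by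
    apply coef_indicator_eq_eSub hM _ _ isPBlock_principalBlock
    · intro ψ hψ
      exact principalBlock_ker hM _ (Cfsg.Agent.Lib.Helper23.pPrimeCore_not_dvd p hp (cen z)) hψ
    · intro g hg
      exact mem_of_index_pow hp _ hj hg
  have h1 : ∀ ζ : IrrCharacter G,
      ∑ k : cen z, eSub (pPrimeCore p (cen z)) k * (ζ : G → ℂ) ((k : G) * z) =
      (principalBlock M G).indicator 1 ζ * (ζ : G → ℂ) z := by
    intro ζ
    have := sum_principal_mul hM hz ⟨z, hzmem⟩ (isPPart_self hp hz) ζ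
    rw [hcoef] at this
    exact this
  have h2 : ∀ g : G, F g = ∑ ζ : IrrCharacter G, classInner F (ζ : G → ℂ) * (ζ : G → ℂ) g := by
    intro g
    have := congrFun (classFunction_eq_sum hF) g
    rw [Finset.sum_apply] at this
    simpa using this
  calc _ = ∑ ζ : IrrCharacter G, classInner F (ζ : G → ℂ) *
        ∑ k : cen z, eSub (pPrimeCore p (cen z)) k * (ζ : G → ℂ) ((k : G) * z) := by
        refine Finset.sum_congr rfl fun ζ _ => ?_
        rw [h1]; ring
    _ = _ := by
        simp_rw [Finset.mul_sum]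
        rw [Finset.sum_comm]
        refine Finset.sum_congr rfl fun k _ => ?_
        rw [h2 ((k : G) * z), Finset.mul_sum]
        refine Finset.sum_congr rfl fun ζ _ => by ring

end avg




section transfer

variable {G : Type*} [Group G]

theorem sq_of_two' {x : G} (hx : orderOf x = 2) : x * x = 1 := by
  have := pow_orderOf_eq_one x
  rwa [hx, pow_two] at this

theorem mem_cen_of_prod {J x k : G} (hJ : orderOf J = 2) (hk : Odd (orderOf k))
    (hkJ : k * J = J * k) (hx : x * x = 1) (hy : (x⁻¹ * (k * J)) * (x⁻¹ * (k * J)) = 1) :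
    x ∈ cen J := by
  have hJ2 := sq_of_two' hJ
  have hxinv : x⁻¹ = x := inv_eq_of_mul_eq_one_left hx
  set g := k * J with hg
  have hgi : x * g * x⁻¹ = g⁻¹ := by
    rw [hxinv] at hy ⊢
    apply eq_inv_of_mul_eq_one_left
    rw [← hy]
    group
  obtain ⟨j, hj⟩ := hk
  have hpow : g ^ (orderOf k) = J := by
    have hc : Commute k J := hkJ
    rw [hg, hc.mul_pow, pow_orderOf_eq_one, one_mul, hj, pow_succ, pow_mul, pow_two, hJ2, one_pow,
      one_mul]
  have h1 : x * J * x⁻¹ = J⁻¹ := by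
    rw [← hpow, ← conj_pow, hgi, inv_pow]
  rw [inv_eq_of_mul_eq_one_left hJ2] at h1
  rw [Subgroup.mem_centralizer_singleton_iff]
  exact mul_inv_eq_iff_eq_mul.mp h1

theorem conv_eq_sum_cen [Fintype G] {J : G} (hJ : orderOf J = 2)
    (hone : ∀ s t : G, orderOf s = 2 → orderOf t = 2 → IsConj s t) (k : cen J)
    (hk : Odd (orderOf k)) :
    conv (classInd J) (classInd J) ((k : G) * J) =
      ∑ x : cen J, (if orderOf x = 2 ∧
        orderOf (x⁻¹ * (k * ⟨J, Subgroup.mem_centralizer_singleton_iff.mpr rfl⟩)) = 2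
        then (1 : ℂ) else 0) := by
  have hiff : ∀ x : G, IsConj J x ↔ orderOf x = 2 := by
    intro x
    constructor
    · intro h
      obtain ⟨c, rfl⟩ := isConj_iff.mp h
      rw [Cfsg.Agent.Lib.Helper2.orderOf_conj_eq, hJ]
    · intro h
      exact hone J x hJ h
  have hkJ : (k : G) * J = J * k := Subgroup.mem_centralizer_singleton_iff.mp k.2
  have hk' : Odd (orderOf (k : G)) := by rwa [Subgroup.orderOf_coe]
  have hR : ∑ x : cen J, (if orderOf x = 2 ∧
        orderOf (x⁻¹ * (k * ⟨J, Subgroup.mem_centralizer_singleton_iff.mpr rfl⟩)) = 2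
        then (1 : ℂ) else 0) = ∑ x : cen J, (fun x : G => if orderOf x = 2 ∧
          orderOf (x⁻¹ * ((k : G) * J)) = 2 then (1 : ℂ) else 0) x := by
    refine Finset.sum_congr rfl fun x _ => ?_
    simp only [← Subgroup.orderOf_coe]
    rfl
  rw [conv_apply, hR, ← Cfsg.Agent.Lib.Helper24.sum_ite_mem_eq_sum_subtype (cen J)
    (fun x : G => if orderOf x = 2 ∧ orderOf (x⁻¹ * ((k : G) * J)) = 2 then (1 : ℂ) else 0)]
  · refine Finset.sum_congr rfl fun x _ => ?_
    rw [classInd_apply, classInd_apply]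
    by_cases h : orderOf x = 2 ∧ orderOf (x⁻¹ * ((k : G) * J)) = 2
    · have hx : x ∈ cen J := mem_cen_of_prod hJ hk' hkJ (sq_of_two' h.1) (sq_of_two' h.2)
      rw [if_pos hx, if_pos h, if_pos ((hiff _).mpr h.1), if_pos ((hiff _).mpr h.2), one_mul]
    · rw [if_neg h, ite_self]
      by_cases h1 : IsConj J x
      · have h2 : ¬ IsConj J (x⁻¹ * ((k : G) * J)) := fun h2 =>
          h ⟨(hiff _).mp h1, (hiff _).mp h2⟩
        rw [if_neg h2, mul_zero]
      · rw [if_neg h1, zero_mul]

end transfer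


section final

variable {G : Type*} [Group G] [Fintype G]

theorem avg_conv (P : Sylow 2 G) (hP : IsKleinFour (P : Subgroup G))
    (hone : ∀ s t : G, orderOf s = 2 → orderOf t = 2 → IsConj s t) {J : G} (hJ : J ∈ P)
    (hJ2 : orderOf J = 2) :
    ∑ k : cen J, eSub (pPrimeCore 2 (cen J)) k * conv (classInd J) (classInd J) ((k : G) * J) =
      8 * (Nat.card (cen J) : ℂ) /
        (Nat.card (Subgroup.centralizer ((P : Subgroup G) : Set G)) : ℂ) ^ 2 := by
  have hJ1 : J ≠ 1 := by
    rintro rfl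
    rw [orderOf_one] at hJ2
    norm_num at hJ2
  obtain ⟨hle, ⟨j, hj⟩, hfac⟩ := klein_cen_index P hP hJ hJ1
  have hnorm := Cfsg.Agent.Lib.Helper23.pPrimeCore_normal 2 (cen J)
  have hnd := Cfsg.Agent.Lib.Helper23.pPrimeCore_not_dvd 2 Nat.prime_two (cen J)
  set O := pPrimeCore 2 (cen J) with hO
  have hOodd : Odd (Nat.card O) := by
    rw [← Nat.not_even_iff_odd, even_iff_two_dvd]; exact hnd
  have hmul := Subgroup.card_mul_index O
  have hidx : O.index = 4 := by
    have h1 : (Nat.card O * O.index).factorization 2 = 2 := by rw [hmul]; exact hfac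
    rw [Nat.factorization_mul Nat.card_pos.ne' Subgroup.index_ne_zero_of_finite, hj,
      Nat.Prime.factorization_pow Nat.prime_two] at h1
    have h2 : (Nat.card O).factorization 2 = 0 := Nat.factorization_eq_zero_of_not_dvd hnd
    rw [Finsupp.add_apply, h2, zero_add, Finsupp.single_eq_same] at h1
    rw [hj, h1]; norm_num
  obtain ⟨t, ht, ht1, hJt⟩ : ∃ t ∈ P, t ≠ 1 ∧ J ≠ t := by
    obtain ⟨x, y, hx, hy, hx1, hy1, hxy⟩ := klein_exists P hP
    by_cases h : J = x
    · exact ⟨y, hy, hy1, by rw [h]; exact hxy⟩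
    · exact ⟨x, hx, hx1, h⟩
  have hJmem : J ∈ cen J := Subgroup.mem_centralizer_singleton_iff.mpr rfl
  set z : cen J := ⟨J, hJmem⟩ with hz
  set t' : cen J := ⟨t, hle ht⟩ with ht'
  have hzo : orderOf z = 2 := by rw [← Subgroup.orderOf_coe]; exact hJ2
  have hto : orderOf t' = 2 := by
    rw [← Subgroup.orderOf_coe]; exact klein_orderOf P hP ht ht1
  have hzc : ∀ h : cen J, h * z = z * h := by
    intro h
    apply Subtype.ext
    exact Subgroup.mem_centralizer_singleton_iff.mp h.2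
  have hzt : z ≠ t' := fun h => hJt (congrArg Subtype.val h)
  have hz2 : z * z = 1 := sq_of_two hzo
  have hcount := count_pairs O hOodd hidx hzo hto hzc hzt
  -- step 1
  have h1 : ∀ k : cen J, eSub O k * conv (classInd J) (classInd J) ((k : G) * J) =
      (Nat.card O : ℂ)⁻¹ * ∑ x : cen J, (if orderOf x = 2 ∧ orderOf (x⁻¹ * (k * z)) = 2 ∧ k ∈ O
        then (1 : ℂ) else 0) := by
    intro k
    rw [eSub_apply]
    by_cases hk : k ∈ O
    · have hko : Odd (orderOf k) := by
        have h2 : orderOf k ∣ Nat.card O := by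
          have := orderOf_dvd_natCard (⟨k, hk⟩ : O)
          rwa [Subgroup.orderOf_mk] at this
        exact hOodd.of_dvd_nat h2
      rw [if_pos hk, conv_eq_sum_cen hJ2 hone k hko]
      congr 1
      refine Finset.sum_congr rfl fun x _ => ?_
      simp only [hk, and_true]
      rfl
    · rw [if_neg hk, zero_mul]
      simp only [hk, and_false, if_false, Finset.sum_const_zero, mul_zero]
  simp_rw [h1]
  rw [← Finset.mul_sum, Finset.sum_comm]
  have h2 : ∀ x : cen J, ∑ k : cen J, (if orderOf x = 2 ∧ orderOf (x⁻¹ * (k * z)) = 2 ∧ k ∈ O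
        then (1 : ℂ) else 0) =
      ∑ y : cen J, (if orderOf x = 2 ∧ orderOf y = 2 ∧ x * y * z ∈ O then (1 : ℂ) else 0) := by
    intro x
    symm
    refine Fintype.sum_equiv ((Equiv.mulLeft x).trans (Equiv.mulRight z)) _ _ fun y => ?_
    have h3 : x⁻¹ * (((Equiv.mulLeft x).trans (Equiv.mulRight z)) y * z) = y := by
      simp only [Equiv.trans_apply, Equiv.coe_mulLeft, Equiv.coe_mulRight]
      rw [mul_assoc (x * y), hz2, mul_one, inv_mul_cancel_left]
    rw [h3]
    rfl
  simp_rw [h2]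
  rw [hcount]
  -- the centralizer
  have hcen : Subgroup.centralizer ({t'} : Set (cen J)) =
      (Subgroup.centralizer ((P : Subgroup G) : Set G)).subgroupOf (cen J) := by
    ext g
    rw [Subgroup.mem_subgroupOf, Subgroup.mem_centralizer_singleton_iff, Subgroup.mem_centralizer_iff]
    constructor
    · intro h a ha
      have hgt : (g : G) * t = t * g := congrArg Subtype.val h
      have hgJ : (g : G) * J = J * g := Subgroup.mem_centralizer_singleton_iff.mp g.2
      by_cases ha1 : a = 1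
      · rw [ha1]; simp
      rcases klein_cases P hP hJ ht ha hJ1 ht1 hJt ha1 with rfl | rfl | rfl
      · exact hgJ.symm
      · exact hgt.symm
      · rw [mul_assoc, ← hgt, ← mul_assoc, ← hgJ, mul_assoc]
    · intro h
      apply Subtype.ext
      exact (h t ht).symm
  have hcle : Subgroup.centralizer ((P : Subgroup G) : Set G) ≤ cen J := by
    apply Subgroup.centralizer_le
    intro x hx
    rw [Set.mem_singleton_iff.mp hx]
    exact hJ
  have hcard : Nat.card (Subgroup.centralizer ({t'} : Set (cen J))) =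
      Nat.card (Subgroup.centralizer ((P : Subgroup G) : Set G)) := by
    rw [hcen]
    exact Nat.card_congr (Subgroup.subgroupOfEquivOfLe hcle).toEquiv
  have hmul2 := Subgroup.card_mul_index (Subgroup.centralizer ({t'} : Set (cen J)))
  rw [hcard] at hmul2
  rw [hidx] at hmul
  have e1 : (Nat.card (cen J) : ℂ) = (Nat.card O : ℂ) * 4 := by exact_mod_cast hmul.symm
  have e2 : (Nat.card (cen J) : ℂ) =
      (Nat.card (Subgroup.centralizer ((P : Subgroup G) : Set G)) : ℂ) *
        ((Subgroup.centralizer ({t'} : Set (cen J))).index : ℂ) := by exact_mod_cast hmul2.symm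
  have n1 : (Nat.card O : ℂ) ≠ 0 := by exact_mod_cast (Nat.card_pos (α := O)).ne'
  have n2 : (Nat.card (Subgroup.centralizer ((P : Subgroup G) : Set G)) : ℂ) ≠ 0 := by
    exact_mod_cast (Nat.card_pos (α := Subgroup.centralizer ((P : Subgroup G) : Set G))).ne'
  have e3 : ((Subgroup.centralizer ({t'} : Set (cen J))).index : ℂ) = (Nat.card O : ℂ) * 4 /
      (Nat.card (Subgroup.centralizer ((P : Subgroup G) : Set G)) : ℂ) := by
    rw [eq_div_iff n2, ← e1, e2]; ring
  rw [e3, e1]
  field_simp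
  ring

end final

section main

theorem order_algebra {K : Type*} [Field K] {a c d x₁ x₂ x₃ e₁ e₂ e₃ : K} (_ha : a ≠ 0)
    (hc : c ≠ 0) (hd : d ≠ 0) (h1 : x₁ ≠ 0) (h2 : x₂ ≠ 0) (h3 : x₃ ≠ 0)
    (s1 : e₁ ^ 2 = 1) (s2 : e₂ ^ 2 = 1) (s3 : e₃ ^ 2 = 1)
    (E1 : (a⁻¹ * (a / c) ^ 2) * (1 + e₁ ^ 2 / x₁ * e₁ + e₂ ^ 2 / x₂ * e₂ + e₃ ^ 2 / x₃ * e₃) =
      8 * c / d ^ 2)
    (E2 : 1 + x₁ * e₁ + x₂ * e₂ + x₃ * e₃ = 0) :
    a * ((x₁ + e₁) * (x₂ + e₂) * (x₃ + e₃)) * d ^ 2 = 8 * c ^ 3 * (x₁ * x₂ * x₃) := by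
  rw [s1, s2, s3] at E1
  have E1' : a * (x₁ * x₂ * x₃ + e₁ * x₂ * x₃ + e₂ * x₁ * x₃ + e₃ * x₁ * x₂) * d ^ 2 =
      8 * c ^ 3 * (x₁ * x₂ * x₃) := by
    field_simp at E1
    linear_combination E1
  rw [← E1']
  linear_combination (a * d ^ 2) * (e₁ * e₂ * e₃ * E2 - x₁ * e₂ * e₃ * s1 - x₂ * e₁ * e₃ * s2 -
    x₃ * e₁ * e₂ * s3)

variable {G : Type*} [Group G] [Fintype G] {M : Ideal AlgInt}

theorem sum_block_four {χ₁ χ₂ χ₃ : IrrCharacter G}
    (hB : principalBlock M G = {χ : IrrCharacter G | (χ : G → ℂ) = (fun _ => 1) ∨ χ = χ₁ ∨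
      χ = χ₂ ∨ χ = χ₃})
    (hdist : (χ₁ : G → ℂ) ≠ (fun _ => 1) ∧ (χ₂ : G → ℂ) ≠ (fun _ => 1) ∧
      (χ₃ : G → ℂ) ≠ (fun _ => 1) ∧ χ₁ ≠ χ₂ ∧ χ₁ ≠ χ₃ ∧ χ₂ ≠ χ₃) (f : IrrCharacter G → ℂ) :
    ∑ ζ : IrrCharacter G, (principalBlock M G).indicator 1 ζ * f ζ =
      f ⟨fun _ => 1, isIrrCharacter_one⟩ + f χ₁ + f χ₂ + f χ₃ := by
  set triv : IrrCharacter G := ⟨fun _ => 1, isIrrCharacter_one⟩ with htriv
  obtain ⟨d1, d2, d3, d12, d13, d23⟩ := hdist
  have t1 : triv ≠ χ₁ := fun h => d1 (by rw [← h])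
  have t2 : triv ≠ χ₂ := fun h => d2 (by rw [← h])
  have t3 : triv ≠ χ₃ := fun h => d3 (by rw [← h])
  have h1 : ∑ ζ : IrrCharacter G, (principalBlock M G).indicator 1 ζ * f ζ =
      ∑ ζ ∈ ({triv, χ₁, χ₂, χ₃} : Finset (IrrCharacter G)), f ζ := by
    rw [← Finset.sum_subset (Finset.subset_univ ({triv, χ₁, χ₂, χ₃} : Finset (IrrCharacter G)))]
    · refine Finset.sum_congr rfl fun ζ hζ => ?_
      have : ζ ∈ principalBlock M G := by
        rw [hB]
        simp only [Finset.mem_insert, Finset.mem_singleton] at hζ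
        rcases hζ with h | h | h | h
        · left; rw [h]
        · right; left; exact h
        · right; right; left; exact h
        · right; right; right; exact h
      rw [Set.indicator_of_mem this, Pi.one_apply, one_mul]
    · intro ζ _ hζ
      have : ζ ∉ principalBlock M G := by
        rw [hB]
        intro h
        apply hζ
        simp only [Finset.mem_insert, Finset.mem_singleton]
        rcases h with h | h | h | h
        · left; exact Subtype.ext h
        · right; left; exact h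
        · right; right; left; exact h
        · right; right; right; exact h
      rw [Set.indicator_of_notMem this, zero_mul]
  rw [h1, Finset.sum_insert, Finset.sum_insert, Finset.sum_insert, Finset.sum_singleton]
  · ring
  · simpa using d23
  · simp only [Finset.mem_insert, Finset.mem_singleton, not_or]; exact ⟨d12, d13⟩
  · simp only [Finset.mem_insert, Finset.mem_singleton, not_or]; exact ⟨t1, t2, t3⟩

theorem klein_main (hM : IsPModular 2 M) {g₀ : ℕ} (hg₀ : Odd g₀) (hG : Nat.card G = 4 * g₀)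
    (hnc : ¬ ∃ N : Subgroup G, N.Normal ∧ Nat.card N = g₀) (P : Sylow 2 G) {J : G}
    (hJ : J ∈ (P : Subgroup G)) (hJ2 : orderOf J = 2) {χ₁ χ₂ χ₃ : IrrCharacter G} {ε₁ ε₂ ε₃ : ℤ}
    (hB : principalBlock M G = {χ : IrrCharacter G | (χ : G → ℂ) = (fun _ => 1) ∨ χ = χ₁ ∨
      χ = χ₂ ∨ χ = χ₃})
    (hdist : (χ₁ : G → ℂ) ≠ (fun _ => 1) ∧ (χ₂ : G → ℂ) ≠ (fun _ => 1) ∧
      (χ₃ : G → ℂ) ≠ (fun _ => 1) ∧ χ₁ ≠ χ₂ ∧ χ₁ ≠ χ₃ ∧ χ₂ ≠ χ₃)
    (hε : (ε₁ = 1 ∨ ε₁ = -1) ∧ (ε₂ = 1 ∨ ε₂ = -1) ∧ (ε₃ = 1 ∨ ε₃ = -1))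
    (hval : (χ₁ : G → ℂ) J = ε₁ ∧ (χ₂ : G → ℂ) J = ε₂ ∧ (χ₃ : G → ℂ) J = ε₃) :
    (1 + (charDegree (χ₁ : G → ℂ) : ℤ) * ε₁ + (charDegree (χ₂ : G → ℂ) : ℤ) * ε₂ +
      (charDegree (χ₃ : G → ℂ) : ℤ) * ε₃ = 0) ∧
    ((Nat.card G : ℤ) * (((charDegree (χ₁ : G → ℂ) : ℤ) + ε₁) * ((charDegree (χ₂ : G → ℂ) : ℤ) + ε₂) *
      ((charDegree (χ₃ : G → ℂ) : ℤ) + ε₃)) *
        (Nat.card (Subgroup.centralizer ((P : Subgroup G) : Set G)) : ℤ) ^ 2 =
      8 * (Nat.card (Subgroup.centralizer ({J} : Set G)) : ℤ) ^ 3 *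
        ((charDegree (χ₁ : G → ℂ) : ℤ) * (charDegree (χ₂ : G → ℂ) : ℤ) *
          (charDegree (χ₃ : G → ℂ) : ℤ))) := by
  obtain ⟨hP, hone⟩ := klein_of_no_complement hg₀ hG hnc P
  have hJ1 : J ≠ 1 := by
    rintro rfl
    rw [orderOf_one] at hJ2
    norm_num at hJ2
  obtain ⟨-, hidx, -⟩ := klein_cen_index P hP hJ hJ1
  obtain ⟨v1, v2, v3⟩ := hval
  have hd : ∀ χ : IrrCharacter G, ((charDegree (χ : G → ℂ) : ℕ) : ℂ) = (χ : G → ℂ) 1 := fun χ =>
    Cfsg.Agent.Lib.Helper24.charDegree_cast (IsIrrCharacter.isCharacter χ.2)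
  have hd0 : ∀ χ : IrrCharacter G, ((charDegree (χ : G → ℂ) : ℕ) : ℂ) ≠ 0 := fun χ => by
    rw [hd]; exact irr_one_ne_zero χ.2
  have E2c : (1 : ℂ) + (charDegree (χ₁ : G → ℂ) : ℂ) * ε₁ + (charDegree (χ₂ : G → ℂ) : ℂ) * ε₂ +
      (charDegree (χ₃ : G → ℂ) : ℂ) * ε₃ = 0 := by
    have h1 := weak_block_orthogonality hM (isPBlock_principalBlock (M := M) (G := G)) (x := 1)
      (y := J) (by rw [orderOf_one]; norm_num) (by rw [hJ2])
    rw [sum_block_four hB hdist] at h1
    simp only [v1, v2, v3, map_intCast, map_one, mul_one, ← hd] at h1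
    exact h1
  have hF : IsClassFunction G (conv (classInd J) (classInd J)) :=
    isClassFunction_conv (isClassFunction_classInd J) (isClassFunction_classInd J)
  have E1c := principal_part_eq_avg hM (z := J) ⟨1, by rw [hJ2, pow_one]⟩ hidx hF
  rw [avg_conv P hP hone hJ hJ2, sum_block_four hB hdist] at E1c
  have htr : classInner (conv (classInd J) (classInd J)) (fun _ : G => (1 : ℂ)) =
      ((Nat.card G : ℂ)⁻¹ * ((Subgroup.centralizer ({J} : Set G)).index : ℂ) ^ 2) * (1 ^ 2 / 1) :=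
    classInner_conv_classInd_invol hJ2 (⟨fun _ => 1, isIrrCharacter_one⟩ : IrrCharacter G)
  simp only [classInner_conv_classInd_invol hJ2, v1, v2, v3, ← hd, htr] at E1c
  have hmul := Subgroup.card_mul_index (Subgroup.centralizer ({J} : Set G))
  have n1 : (Nat.card G : ℂ) ≠ 0 := by exact_mod_cast (Nat.card_pos (α := G)).ne'
  have n2 : (Nat.card (Subgroup.centralizer ({J} : Set G)) : ℂ) ≠ 0 := by
    exact_mod_cast (Nat.card_pos (α := Subgroup.centralizer ({J} : Set G))).ne'
  have n3 : (Nat.card (Subgroup.centralizer ((P : Subgroup G) : Set G)) : ℂ) ≠ 0 := by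
    exact_mod_cast (Nat.card_pos (α := Subgroup.centralizer ((P : Subgroup G) : Set G))).ne'
  have hix : ((Subgroup.centralizer ({J} : Set G)).index : ℂ) =
      (Nat.card G : ℂ) / (Nat.card (Subgroup.centralizer ({J} : Set G)) : ℂ) := by
    rw [eq_div_iff n2, mul_comm]
    exact_mod_cast hmul
  rw [hix] at E1c
  have sq : ∀ ε : ℤ, (ε = 1 ∨ ε = -1) → ((ε : ℂ)) ^ 2 = 1 := by
    rintro ε (rfl | rfl) <;> norm_num
  have key := order_algebra n1 n2 n3 (hd0 χ₁) (hd0 χ₂) (hd0 χ₃) (sq _ hε.1) (sq _ hε.2.1)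
    (sq _ hε.2.2) (by
      rw [← E1c]
      ring) E2c
  constructor
  · exact_mod_cast E2c
  · exact_mod_cast key

end main

end Cfsg.Agent.Lib.Helper23.KleinOrder
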