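import Mathlib
import Cfsg.Agent.Lib.Helper23.KleinOrder
import Cfsg.Agent.Lib.Helper23.RealBlock
import Cfsg.Agent.Lib.Helper23.FSCount
import Cfsg.Agent.S0895

/-!
# Brauer's order formula, Klein four Sylow subgroups: the case of sign product `-1`
-/

set_option autoImplicit false

namespace Cfsg.Agent.Lib.Helper23.KleinOrder

open Cfsg Cfsg.Agent.Lib.Helper6 Cfsg.Agent.Lib.Helper2 Cfsg.Agent.Lib.Helper23.RealBlock
open scoped Classical ComplexConjugate

attribute [local instance] irrFintype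

theorem arith {a c d x : ℕ} (hx : 0 < x) (hd : 0 < d) (hc : 0 < c) (hdc : d ∣ c) (hca : c ∣ a)
    (key : a * ((x + 1) * (x + 1) * (2 * x)) * d ^ 2 = 8 * c ^ 3 * (x * x * (2 * x + 1))) :
    ∃ m : ℕ, 4 * c = m * d * ((2 * x + 1) + 1) ∧
      8 * a = m ^ 3 * d * ((2 * x + 1) ^ 3 - (2 * x + 1)) := by
  obtain ⟨r, rfl⟩ := hdc
  obtain ⟨K, rfl⟩ := hca
  have hr : 0 < r := Nat.pos_of_mul_pos_left hc |> fun h => by
    rcases Nat.eq_zero_or_pos r with h0 | h0
    · rw [h0, mul_zero] at hc; exact absurd hc (lt_irrefl 0)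
    · exact h0
  have h1 : K * (x + 1) ^ 2 = (2 * r) ^ 2 * (x * (2 * x + 1)) := by
    have h2 : (2 * x * d ^ 3 * r) * (K * (x + 1) ^ 2) =
        (2 * x * d ^ 3 * r) * ((2 * r) ^ 2 * (x * (2 * x + 1))) := by
      nlinarith [key]
    exact Nat.eq_of_mul_eq_mul_left (by positivity) h2
  have hcop : Nat.Coprime ((x + 1) ^ 2) (x * (2 * x + 1)) := by
    apply Nat.Coprime.pow_left
    apply Nat.Coprime.mul_right
    · simp
    · have : 2 * x + 1 = x + (x + 1) := by ring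
      rw [this]
      simp
  have h3 : (x + 1) ^ 2 ∣ (2 * r) ^ 2 := by
    apply hcop.dvd_of_dvd_mul_right
    rw [← h1]
    exact Dvd.intro_left K rfl
  have h4 : (x + 1) ∣ 2 * r := (Nat.pow_dvd_pow_iff (by norm_num)).mp h3
  obtain ⟨m, hm⟩ := h4
  refine ⟨m, ?_, ?_⟩
  · calc 4 * (d * r) = 2 * d * (2 * r) := by ring
      _ = m * d * ((2 * x + 1) + 1) := by rw [hm]; ring
  · have h5 : K = m ^ 2 * (x * (2 * x + 1)) := by
      rw [hm] at h1
      have h6 : (x + 1) ^ 2 * K = (x + 1) ^ 2 * (m ^ 2 * (x * (2 * x + 1))) := by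
        nlinarith [h1]
      exact Nat.eq_of_mul_eq_mul_left (by positivity) h6
    have h7 : (2 * x + 1) ^ 3 - (2 * x + 1) = 4 * x * (x + 1) * (2 * x + 1) := by
      apply Nat.sub_eq_of_eq_add
      ring
    rw [h7, h5]
    calc 8 * (d * r * (m ^ 2 * (x * (2 * x + 1)))) = 4 * d * (2 * r) * (m ^ 2 * (x * (2 * x + 1))) := by
          ring
      _ = _ := by rw [hm]; ring

section fs

variable {G : Type*} [Group G] [Fintype G] {M : Ideal AlgInt}

theorem conjI_mem_principalBlock {χ : IrrCharacter G} (hχ : χ ∈ principalBlock M G) :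
    conjI χ ∈ principalBlock M G := by
  intro g
  have h := hχ g⁻¹
  have h1 : centralChar (fun _ : G => (1 : ℂ)) g⁻¹ = centralChar (fun _ : G => (1 : ℂ)) g := by
    unfold centralChar
    rw [centralizer_inv]
  have h2 : centralChar (χ : G → ℂ) g⁻¹ = centralChar (conjI χ : G → ℂ) g := by
    unfold centralChar
    rw [centralizer_inv, conjI_apply, conjI_apply, inv_one]
  rw [h1, h2] at h
  exact h

theorem sqrtCount_eq_zero (P : Sylow 2 G) (hP : IsKleinFour (P : Subgroup G)) {J k : G}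
    (hJ2 : orderOf J = 2) (hk : Odd (orderOf k)) (hkJ : k * J = J * k) :
    sqrtCount (k * J) = 0 := by
  unfold sqrtCount
  refine Finset.sum_eq_zero fun h _ => ?_
  rw [if_neg]
  intro hh
  have hJsq := sq_of_two hJ2
  obtain ⟨j, hj⟩ := hk
  have hpow : (k * J) ^ (orderOf k) = J := by
    have hc : Commute k J := hkJ
    rw [hc.mul_pow, pow_orderOf_eq_one, one_mul, hj, pow_succ, pow_mul, pow_two, hJsq, one_pow,
      one_mul]
  set w := h ^ (orderOf k) with hw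
  have hww : w * w = J := by
    rw [hw, ← (Commute.refl h).mul_pow, hh, hpow]
  have hw4 : w ^ 2 ^ 2 = 1 := by
    calc w ^ 2 ^ 2 = (w * w) * (w * w) := by norm_num [pow_succ, mul_assoc]
      _ = 1 := by rw [hww, hJsq]
  obtain ⟨i, -, hi⟩ := (Nat.dvd_prime_pow Nat.prime_two).mp (orderOf_dvd_of_pow_eq_one hw4)
  have hz : IsPGroup 2 (Subgroup.zpowers w) := by
    apply IsPGroup.of_card (n := i)
    rw [Nat.card_zpowers, hi]
  obtain ⟨P', hP'⟩ := hz.exists_le_sylow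
  have hK' : IsKleinFour (P' : Subgroup G) := isKleinFour_of_mulEquiv (P.equiv P') hP
  have h1 := klein_mul_self P' hK' (hP' (Subgroup.mem_zpowers w))
  rw [hww] at h1
  rw [h1, orderOf_one] at hJ2
  norm_num at hJ2

theorem fs_relation (hM : IsPModular 2 M) (P : Sylow 2 G) (hP : IsKleinFour (P : Subgroup G))
    {J : G} (hJ : J ∈ (P : Subgroup G)) (hJ2 : orderOf J = 2) :
    ∑ ζ : IrrCharacter G, (principalBlock M G).indicator 1 ζ *
        (fsInd (ζ : G → ℂ) * (ζ : G → ℂ) J) = 0 := by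
  have hJ1 : J ≠ 1 := by
    rintro rfl
    rw [orderOf_one] at hJ2
    norm_num at hJ2
  obtain ⟨-, hidx, -⟩ := klein_cen_index P hP hJ hJ1
  have h := principal_part_eq_avg hM (z := J) ⟨1, by rw [hJ2, pow_one]⟩ hidx
    (sqrtCount_isClassFunction (G := G))
  have hnd := Cfsg.Agent.Lib.Helper23.pPrimeCore_not_dvd 2 Nat.prime_two (cen J)
  have hOodd : Odd (Nat.card (pPrimeCore 2 (cen J))) := by
    rw [← Nat.not_even_iff_odd, even_iff_two_dvd]; exact hnd
  have h0 : ∑ k : cen J, eSub (pPrimeCore 2 (cen J)) k * sqrtCount ((k : G) * J) = 0 := by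
    refine Finset.sum_eq_zero fun k _ => ?_
    rw [eSub_apply]
    by_cases hk : k ∈ pPrimeCore 2 (cen J)
    · have hko : Odd (orderOf (k : G)) := by
        have h2 : orderOf k ∣ Nat.card (pPrimeCore 2 (cen J)) := by
          have := orderOf_dvd_natCard (⟨k, hk⟩ : pPrimeCore 2 (cen J))
          rwa [Subgroup.orderOf_mk] at this
        rw [Subgroup.orderOf_coe]
        exact hOodd.of_dvd_nat h2
      rw [sqrtCount_eq_zero P hP hJ2 hko (Subgroup.mem_centralizer_singleton_iff.mp k.2), mul_zero]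
    · rw [if_neg hk, zero_mul]
  rw [h0] at h
  rw [← h]
  refine Finset.sum_congr rfl fun ζ _ => ?_
  rw [classInner_sqrtCount ζ.2]

theorem odd_degree (P : Sylow 2 G) (hP : IsKleinFour (P : Subgroup G))
    (hone : ∀ s t : G, orderOf s = 2 → orderOf t = 2 → IsConj s t) {J : G}
    (hJ2 : orderOf J = 2) (χ : IrrCharacter G) {ε : ℤ} (hε : ε = 1 ∨ ε = -1)
    (hv : (χ : G → ℂ) J = ε) : Odd (charDegree (χ : G → ℂ)) := by
  have h1 := card_dvd_degree_sub (IsIrrCharacter.isCharacter χ.2) (P : Subgroup G) ε (by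
    intro x hx hx1
    have hc := hone J x hJ2 (klein_orderOf P hP hx hx1)
    rw [← Cfsg.Agent.Lib.Helper6.IsClassFunction.eq_of_isConj (irr_isClassFunction χ.2) hc, hv])
  rw [hP.card_four] at h1
  obtain ⟨m, hm⟩ := h1
  have : Odd ((charDegree (χ : G → ℂ) : ℕ) : ℤ) := by
    rcases hε with rfl | rfl
    · exact ⟨2 * m, by push_cast at hm; linarith⟩
    · exact ⟨2 * m - 1, by push_cast at hm; linarith⟩
  exact_mod_cast this

theorem fsInd_of_odd (χ : IrrCharacter G) (hodd : Odd (charDegree (χ : G → ℂ))) :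
    (fsInd (χ : G → ℂ) = 0 ∧ ∃ g, ((χ : G → ℂ) g).im ≠ 0) ∨ fsInd (χ : G → ℂ) = 1 := by
  rcases fsInd_cases χ.2 with h | ⟨-, h⟩
  · exact Or.inl h
  · right
    exact Cfsg.Agent.S0895.result (χ : G → ℂ) χ.2 h _
      (Cfsg.Agent.Lib.Helper24.charDegree_cast (IsIrrCharacter.isCharacter χ.2)).symm hodd

theorem degree_eq (hM : IsPModular 2 M) (P : Sylow 2 G) (hP : IsKleinFour (P : Subgroup G))
    (hone : ∀ s t : G, orderOf s = 2 → orderOf t = 2 → IsConj s t) {J : G}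
    (hJ : J ∈ (P : Subgroup G)) (hJ2 : orderOf J = 2) {χ₁ χ₂ χ₃ : IrrCharacter G}
    (hB : principalBlock M G = {χ : IrrCharacter G | (χ : G → ℂ) = (fun _ => 1) ∨ χ = χ₁ ∨
      χ = χ₂ ∨ χ = χ₃})
    (hdist : (χ₁ : G → ℂ) ≠ (fun _ => 1) ∧ (χ₂ : G → ℂ) ≠ (fun _ => 1) ∧
      (χ₃ : G → ℂ) ≠ (fun _ => 1) ∧ χ₁ ≠ χ₂ ∧ χ₁ ≠ χ₃ ∧ χ₂ ≠ χ₃)
    (v1 : (χ₁ : G → ℂ) J = 1) (v2 : (χ₂ : G → ℂ) J = 1) (v3 : (χ₃ : G → ℂ) J = -1) :
    charDegree (χ₁ : G → ℂ) = charDegree (χ₂ : G → ℂ) := by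
  have o1 := odd_degree P hP hone hJ2 χ₁ (ε := 1) (Or.inl rfl) (by rw [v1]; norm_num)
  have o2 := odd_degree P hP hone hJ2 χ₂ (ε := 1) (Or.inl rfl) (by rw [v2]; norm_num)
  have hfs := fs_relation hM P hP hJ hJ2
  rw [sum_block_four hB hdist] at hfs
  simp only [v1, v2, v3, fsInd_one] at hfs
  have hnr : ∃ g, ((χ₁ : G → ℂ) g).im ≠ 0 := by
    rcases fsInd_of_odd χ₁ o1 with ⟨-, h⟩ | h1
    · exact h
    · exfalso
      rw [h1] at hfs
      rcases fsInd_of_odd χ₂ o2 with ⟨h2, -⟩ | h2 <;>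
      rcases fsInd_trichotomy χ₃.2 with h3 | h3 | h3 <;>
      rw [h2, h3] at hfs <;> norm_num at hfs
  obtain ⟨g, hg⟩ := hnr
  have hmem : χ₁ ∈ principalBlock M G := by
    rw [hB]; right; left; rfl
  have hc := conjI_mem_principalBlock hmem
  rw [hB] at hc
  rcases hc with h | h | h | h
  · exfalso
    apply hg
    have h1 : conj ((χ₁ : G → ℂ) g) = 1 := congrFun h g
    have h2 := congrArg conj h1
    rw [Complex.conj_conj, map_one] at h2
    rw [h2]; simp
  · exfalso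
    apply hg
    have h1 : conj ((χ₁ : G → ℂ) g) = (χ₁ : G → ℂ) g := congrFun (congrArg Subtype.val h) g
    exact Complex.conj_eq_iff_im.mp h1
  · rw [← h]
    unfold charDegree
    show _ = ⌊(conj ((χ₁ : G → ℂ) 1)).re⌋₊
    rw [Complex.conj_re]
  · exfalso
    have h1 : conj ((χ₁ : G → ℂ) J) = (χ₃ : G → ℂ) J := congrFun (congrArg Subtype.val h) J
    rw [v1, v3, map_one] at h1
    norm_num at h1

end fs

end Cfsg.Agent.Lib.Helper23.KleinOrder
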