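import Mathlib
import Cfsg.Agent.Lib.Helper2.PermChar
import Cfsg.Agent.Lib.Helper6.CharCentral
import Cfsg.Agent.Lib.Helper2.Clifford

/-!
# Orbitals of a transitive action: integrality of the traces of the Hecke operators
-/

set_option autoImplicit false
set_option linter.unusedSectionVars false

namespace Cfsg.Agent.Lib.Helper23.Orbital

open Cfsg
open scoped Classical

variable (G : Type*) [Group G] [Fintype G] {Ω : Type*} [Fintype Ω] [MulAction G Ω]

/-- the orbital of the pair `(a, b)` -/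
def rel (a b ω ω' : Ω) : Prop := ∃ k : G, k • a = ω ∧ k • b = ω'

/-- the elements carrying `a` to `ω` -/
noncomputable def fib (a ω : Ω) : Finset G := Finset.univ.filter fun g => g • a = ω

/-- the elements `x` with `(ω, x a)` in the orbital -/
noncomputable def xset (a b ω : Ω) : Finset G := Finset.univ.filter fun x => rel G a b ω (x • a)

variable {G}

theorem mem_fib {a ω : Ω} {g : G} : g ∈ fib G a ω ↔ g • a = ω := by
  simp [fib]

theorem mem_xset {a b ω : Ω} {x : G} : x ∈ xset G a b ω ↔ rel G a b ω (x • a) := by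
  simp [xset]

theorem card_fib [MulAction.IsPretransitive G Ω] (a ω : Ω) :
    (fib G a ω).card = (fib G a a).card := by
  obtain ⟨g, hg⟩ := MulAction.exists_smul_eq G a ω
  symm
  refine Finset.card_bij (fun h _ => g * h) ?_ ?_ ?_
  · intro h hh
    rw [mem_fib] at hh ⊢
    rw [mul_smul, hh, hg]
  · intro h _ h' _ e
    exact mul_left_cancel e
  · intro k hk
    rw [mem_fib] at hk
    refine ⟨g⁻¹ * k, ?_, by simp⟩
    rw [mem_fib, mul_smul, hk, ← hg, inv_smul_smul]

theorem card_fib_pos (a : Ω) : 0 < (fib G a a).card :=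
  Finset.card_pos.mpr ⟨1, by rw [mem_fib, one_smul]⟩

section ring

variable {E : Type*} [Ring E] (ρ : G →* E)

theorem sum_xset_mul (a b ω : Ω) {g : G} (hg : g ∈ fib G a ω) :
    ∑ y ∈ xset G a b a, ρ (g * y) = ∑ x ∈ xset G a b ω, ρ x := by
  rw [mem_fib] at hg
  refine Finset.sum_bij (fun y _ => g * y) ?_ ?_ ?_ ?_
  · intro y hy
    rw [mem_xset] at hy ⊢
    obtain ⟨k, hk1, hk2⟩ := hy
    exact ⟨g * k, by rw [mul_smul, hk1, hg], by rw [mul_smul, hk2, mul_smul]⟩
  · intro y _ y' _ e
    exact mul_left_cancel e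
  · intro x hx
    rw [mem_xset] at hx
    obtain ⟨k, hk1, hk2⟩ := hx
    refine ⟨g⁻¹ * x, ?_, by simp⟩
    rw [mem_xset]
    exact ⟨g⁻¹ * k, by rw [mul_smul, hk1, ← hg, inv_smul_smul], by rw [mul_smul, hk2, mul_smul]⟩
  · intro y _
    rfl

/-- the coset sums -/
noncomputable def cs (a ω : Ω) : E := ∑ g ∈ fib G a ω, ρ g

/-- the (unnormalised) Hecke operator -/
noncomputable def hk (a b : Ω) : E := ∑ y ∈ xset G a b a, ρ y

/-- the adjacency matrix of the orbital -/
noncomputable def adj (G : Type*) [Group G] {Ω : Type*} [MulAction G Ω] (a b : Ω) :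
    Matrix Ω Ω ℤ := fun ω ω' => if rel G a b ω ω' then 1 else 0

theorem sum_xset_eq (a b ω : Ω) :
    ∑ x ∈ xset G a b ω, ρ x = ∑ ω', adj G a b ω ω' • cs ρ a ω' := by
  unfold cs adj xset fib
  rw [Finset.sum_filter, ← Finset.sum_fiberwise Finset.univ (fun x : G => x • a)]
  refine Finset.sum_congr rfl fun ω' _ => ?_
  rw [Finset.smul_sum]
  refine Finset.sum_congr rfl fun x hx => ?_
  rw [Finset.mem_filter] at hx
  rw [hx.2]
  split_ifs <;> simp

theorem cs_mul_hk [MulAction.IsPretransitive G Ω] (a b ω : Ω) :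
    cs ρ a ω * hk ρ a b = (fib G a a).card • ∑ ω', adj G a b ω ω' • cs ρ a ω' := by
  unfold cs hk
  rw [Finset.sum_mul]
  have : ∀ g ∈ fib G a ω, ρ g * ∑ y ∈ xset G a b a, ρ y = ∑ x ∈ xset G a b ω, ρ x := by
    intro g hg
    rw [Finset.mul_sum, ← sum_xset_mul ρ a b ω hg]
    refine Finset.sum_congr rfl fun y _ => ?_
    rw [map_mul]
  rw [Finset.sum_congr rfl this, Finset.sum_const, card_fib, sum_xset_eq]
  rfl

theorem hk_eq (a b : Ω) : hk ρ a b = ∑ ω', adj G a b a ω' • cs ρ a ω' :=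
  sum_xset_eq ρ a b a

end ring

theorem mul_aeval_eq {E : Type*} [Ring E] {Ω : Type*} [Fintype Ω] (S : Ω → E) (R : E)
    (A : Matrix Ω Ω ℤ) (h : ∀ ω, S ω * R = ∑ ω', A ω ω' • S ω') (q : Polynomial ℤ) (ω : Ω) :
    S ω * Polynomial.aeval R q = ∑ ω', (Polynomial.aeval A q) ω ω' • S ω' := by
  induction q using Polynomial.induction_on generalizing ω with
  | C c =>
    rw [Polynomial.aeval_C, Polynomial.aeval_C, Algebra.algebraMap_eq_smul_one,
      Algebra.algebraMap_eq_smul_one]
    simp only [Matrix.smul_apply, Matrix.one_apply, mul_smul_comm, mul_one, smul_eq_mul,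
      mul_ite, mul_zero, ite_smul, zero_smul]
    simp
  | add p q hp hq =>
    simp only [map_add, mul_add, hp, hq, Matrix.add_apply, add_smul, Finset.sum_add_distrib]
  | monomial n c ih =>
    rw [pow_succ, ← mul_assoc, map_mul, map_mul (Polynomial.aeval A), Polynomial.aeval_X,
      Polynomial.aeval_X, ← mul_assoc, ih, Finset.sum_mul]
    simp_rw [smul_mul_assoc, h, Finset.smul_sum, smul_smul]
    rw [Finset.sum_comm]
    refine Finset.sum_congr rfl fun ω'' _ => ?_
    rw [Matrix.mul_apply, Finset.sum_smul]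

theorem isIntegral_trace_of_aeval {V : Type*} [AddCommGroup V] [Module ℂ V]
    [FiniteDimensional ℂ V] (R : Module.End ℂ V) (q : Polynomial ℤ) (hq : q.Monic)
    (h : Polynomial.aeval R q = 0) : IsIntegral ℤ (LinearMap.trace ℂ V R) := by
  rw [Module.End.trace_eq_sum_roots_charpoly_of_splits (IsAlgClosed.splits _)]
  refine IsIntegral.multiset_sum fun μ hμ => ?_
  have h1 : R.charpoly.IsRoot μ := (Polynomial.mem_roots'.mp hμ).2
  rw [← Module.End.hasEigenvalue_iff_isRoot_charpoly] at h1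
  obtain ⟨v, hv⟩ := h1.exists_hasEigenvector
  have h2 := Module.End.aeval_apply_of_hasEigenvector (p := q.map (algebraMap ℤ ℂ)) hv
  rw [Polynomial.aeval_map_algebraMap, h, LinearMap.zero_apply] at h2
  have h3 : (q.map (algebraMap ℤ ℂ)).eval μ = 0 := by
    rcases smul_eq_zero.mp h2.symm with h | h
    · exact h
    · exact absurd h hv.2
  refine ⟨q, hq, ?_⟩
  rwa [Polynomial.eval_map] at h3

section rep

variable {V : Type*} [AddCommGroup V] [Module ℂ V] [FiniteDimensional ℂ V]
  (ρ : Representation ℂ G V)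

/-- the normalised Hecke operator -/
noncomputable def nhk (a b : Ω) : Module.End ℂ V := ((fib G a a).card : ℂ)⁻¹ • hk ρ a b

theorem card_ne_zero (a : Ω) : ((fib G a a).card : ℂ) ≠ 0 := by
  have := (card_fib_pos (G := G) a).ne'
  exact_mod_cast this

theorem cs_mul_nhk [MulAction.IsPretransitive G Ω] (a b ω : Ω) :
    cs ρ a ω * nhk ρ a b = ∑ ω', adj G a b ω ω' • cs ρ a ω' := by
  unfold nhk
  rw [mul_smul_comm, cs_mul_hk, ← Nat.cast_smul_eq_nsmul ℂ, inv_smul_smul₀ (card_ne_zero a)]

theorem cs_mul_nhk_self [MulAction.IsPretransitive G Ω] (a b : Ω) :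
    ((fib G a a).card : ℂ)⁻¹ • (cs ρ a a * nhk ρ a b) = nhk ρ a b := by
  rw [cs_mul_nhk, ← hk_eq]
  rfl

theorem isIntegral_trace_nhk [MulAction.IsPretransitive G Ω] (a b : Ω) :
    IsIntegral ℤ (LinearMap.trace ℂ V (nhk ρ a b)) := by
  set R := nhk ρ a b with hR
  set q := (adj G a b).charpoly with hq
  have h0 : ∀ ω, cs ρ a ω * Polynomial.aeval R q = 0 := by
    intro ω
    rw [mul_aeval_eq (cs ρ a) R (adj G a b) (fun ω => cs_mul_nhk ρ a b ω) q ω, hq,
      Matrix.aeval_self_charpoly]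
    simp
  refine isIntegral_trace_of_aeval R (Polynomial.X * q)
    (Polynomial.monic_X.mul (Matrix.charpoly_monic _)) ?_
  rw [map_mul, Polynomial.aeval_X]
  have hc : R * Polynomial.aeval R q = Polynomial.aeval R q * R := by
    have := (Commute.all Polynomial.X q).map (Polynomial.aeval R)
    rw [Polynomial.aeval_X] at this
    exact this.eq
  have hself : R = ((fib G a a).card : ℂ)⁻¹ • (cs ρ a a * R) := (cs_mul_nhk_self ρ a b).symm
  calc R * Polynomial.aeval R q
      = (((fib G a a).card : ℂ)⁻¹ • (cs ρ a a * R)) * Polynomial.aeval R q := by rw [← hself]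
    _ = ((fib G a a).card : ℂ)⁻¹ • ((cs ρ a a * Polynomial.aeval R q) * R) := by
        rw [smul_mul_assoc, mul_assoc, hc, mul_assoc]
    _ = 0 := by rw [h0, zero_mul, smul_zero]

theorem xset_self (a : Ω) : xset G a a a = fib G a a := by
  ext x
  rw [mem_xset, mem_fib]
  constructor
  · rintro ⟨k, hk1, hk2⟩
    rw [← hk2, hk1]
  · intro h
    exact ⟨1, one_smul _ _, by rw [one_smul, h]⟩

/-- the projection onto the fixed points of the stabiliser -/
noncomputable def pr (a : Ω) : Module.End ℂ V := ((fib G a a).card : ℂ)⁻¹ • cs ρ a a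

theorem nhk_self (a : Ω) : nhk ρ a a = pr ρ a := by
  unfold nhk pr hk cs
  rw [xset_self]

theorem pr_mul_nhk [MulAction.IsPretransitive G Ω] (a b : Ω) : pr ρ a * nhk ρ a b = nhk ρ a b := by
  unfold pr
  rw [smul_mul_assoc, cs_mul_nhk_self]

theorem isIdempotentElem_pr [MulAction.IsPretransitive G Ω] (a : Ω) :
    IsIdempotentElem (pr ρ a) := by
  unfold IsIdempotentElem
  conv_lhs => rw [← nhk_self ρ a, nhk_self ρ a, ← nhk_self ρ a]
  rw [nhk_self ρ a]
  have := pr_mul_nhk ρ a a
  rwa [nhk_self] at this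

theorem trace_nhk (a b : Ω) : LinearMap.trace ℂ V (nhk ρ a b) =
    ((fib G a a).card : ℂ)⁻¹ * ∑ y ∈ xset G a b a, ρ.character y := by
  unfold nhk hk
  rw [map_smul, map_sum, smul_eq_mul]
  rfl

theorem trace_pr (a : Ω) : LinearMap.trace ℂ V (pr ρ a) =
    ((fib G a a).card : ℂ)⁻¹ * ∑ y ∈ fib G a a, ρ.character y := by
  rw [← nhk_self, trace_nhk, xset_self]

theorem nhk_eq_zero [MulAction.IsPretransitive G Ω] (a b : Ω)
    (h : ∑ y ∈ fib G a a, ρ.character y = 0) : nhk ρ a b = 0 := by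
  have h1 : LinearMap.trace ℂ V (pr ρ a) = 0 := by rw [trace_pr, h, mul_zero]
  have h2 := (LinearMap.IsIdempotentElem.trace_eq_zero_iff (isIdempotentElem_pr ρ a)).mp h1
  rw [← pr_mul_nhk, h2, zero_mul]

end rep

section char

open Cfsg.Agent.Lib.Helper2 Cfsg.Agent.Lib.Helper6
open scoped ComplexConjugate

attribute [local instance] irrFintype

variable [MulAction.IsPretransitive G Ω]

/-- the trace of the normalised Hecke operator, on the level of functions -/
noncomputable def tau (a b : Ω) (χ : G → ℂ) : ℂ :=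
  ((fib G a a).card : ℂ)⁻¹ * ∑ y ∈ xset G a b a, χ y

theorem isIntegral_tau (a b : Ω) {χ : G → ℂ} (hχ : IsCharacter G χ) :
    IsIntegral ℤ (tau a b χ) := by
  obtain ⟨n, ρ, rfl⟩ := hχ
  have := isIntegral_trace_nhk ρ a b
  rwa [trace_nhk] at this

theorem tau_eq_zero (a b : Ω) {χ : G → ℂ} (hχ : IsCharacter G χ)
    (h : ∑ y ∈ fib G a a, χ y = 0) : tau a b χ = 0 := by
  obtain ⟨n, ρ, rfl⟩ := hχ
  have := trace_nhk ρ a b
  rw [nhk_eq_zero ρ a b h, map_zero] at this
  exact this.symm

theorem rel_iff_mem_orbit (a b ω : Ω) :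
    rel G a b a ω ↔ ω ∈ MulAction.orbit (MulAction.stabilizer G a) b := by
  constructor
  · rintro ⟨k, hk1, hk2⟩
    exact ⟨⟨k, hk1⟩, hk2⟩
  · rintro ⟨⟨k, hk1⟩, hk2⟩
    exact ⟨k, hk1, hk2⟩

theorem card_xset (a b : Ω) : (xset G a b a).card =
    (fib G a a).card * Nat.card (MulAction.orbit (MulAction.stabilizer G a) b) := by
  have h := sum_xset_eq (1 : G →* ℤ) a b a
  simp only [MonoidHom.one_apply, Finset.sum_const, cs, card_fib, smul_eq_mul, mul_one, adj] at h
  rw [← Finset.sum_mul, Finset.sum_boole] at h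
  have h2 : Nat.card (MulAction.orbit (MulAction.stabilizer G a) b) =
      (Finset.univ.filter fun ω => rel G a b a ω).card := by
    rw [Nat.card_eq_fintype_card, ← Set.toFinset_card]
    congr 1
    ext ω
    rw [Set.mem_toFinset, Finset.mem_filter, rel_iff_mem_orbit]
    simp
  rw [h2, mul_comm]
  simp only [nsmul_eq_mul, mul_one] at h
  exact_mod_cast h

theorem tau_one (a b : Ω) : tau a b (fun _ : G => (1 : ℂ)) =
    (Nat.card (MulAction.orbit (MulAction.stabilizer G a) b) : ℂ) := by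
  unfold tau
  rw [Finset.sum_const, card_xset, nsmul_eq_mul, mul_one]
  push_cast
  rw [inv_mul_cancel_left₀ (card_ne_zero a)]

theorem one_notMem_xset {a b : Ω} (hab : b ≠ a) : (1 : G) ∉ xset G a b a := by
  rw [mem_xset]
  rintro ⟨k, hk1, hk2⟩
  rw [one_smul] at hk2
  apply hab
  have : k • b = k • a := by rw [hk1, hk2]
  exact MulAction.injective k this

theorem sum_tau {a b : Ω} (hab : b ≠ a) :
    ∑ χ : IrrCharacter G, (χ : G → ℂ) 1 * tau a b (χ : G → ℂ) = 0 := by
  unfold tau
  simp_rw [mul_left_comm, Finset.mul_sum]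
  rw [Finset.sum_comm]
  refine Finset.sum_eq_zero fun y hy => ?_
  rw [← Finset.mul_sum, sum_degree_mul_irr, if_neg, mul_zero]
  rintro rfl
  exact one_notMem_xset hab hy

theorem card_eq (a : Ω) : Nat.card G = Fintype.card Ω * (fib G a a).card := by
  rw [Nat.card_eq_fintype_card, ← Finset.card_univ,
    Finset.card_eq_sum_card_fiberwise (f := fun g : G => g • a) (t := Finset.univ)
      (fun _ _ => Finset.mem_univ _)]
  have : ∀ ω ∈ (Finset.univ : Finset Ω), (Finset.univ.filter fun g : G => g • a = ω).card =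
      (fib G a a).card := fun ω _ => card_fib a ω
  rw [Finset.sum_congr rfl this, Finset.sum_const, smul_eq_mul, Finset.card_univ]

theorem sum_fib_conj (a ω : Ω) {χ : G → ℂ} (hχ : IsClassFunction G χ) :
    ∑ y ∈ fib G ω ω, χ y = ∑ y ∈ fib G a a, χ y := by
  obtain ⟨k, hk⟩ := MulAction.exists_smul_eq G a ω
  symm
  refine Finset.sum_bij (fun h _ => k * h * k⁻¹) ?_ ?_ ?_ ?_
  · intro h hh
    rw [mem_fib] at hh ⊢
    rw [mul_smul, mul_smul, ← hk, inv_smul_smul, hh]
  · intro h _ h' _ e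
    simpa using e
  · intro g hg
    rw [mem_fib] at hg
    refine ⟨k⁻¹ * g * k, ?_, by group⟩
    rw [mem_fib, mul_smul, mul_smul, hk, hg, ← hk, inv_smul_smul]
  · intro h _
    exact (hχ h k).symm

theorem classInner_perm (a : Ω) {χ : G → ℂ} (hχ : IsClassFunction G χ) :
    classInner (fun g : G => (Nat.card (MulAction.fixedBy Ω g) : ℂ)) χ =
      ((fib G a a).card : ℂ)⁻¹ * ∑ y ∈ fib G a a, conj (χ y) := by
  unfold classInner
  have h1 : ∀ g : G, (Nat.card (MulAction.fixedBy Ω g) : ℂ) =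
      ∑ ω : Ω, if g • ω = ω then 1 else 0 := by
    intro g
    rw [Finset.sum_boole, Nat.card_eq_fintype_card, ← Set.toFinset_card]
    congr 2
    ext ω
    simp [MulAction.mem_fixedBy]
  simp_rw [h1, Finset.sum_mul]
  rw [Finset.sum_comm]
  have h2 : ∀ ω ∈ (Finset.univ : Finset Ω),
      ∑ g : G, (if g • ω = ω then (1 : ℂ) else 0) * conj (χ g) = ∑ y ∈ fib G a a, conj (χ y) := by
    intro ω _
    have hc : IsClassFunction G (fun g => conj (χ g)) := fun g h => by
      show conj (χ _) = conj (χ _)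
      rw [hχ]
    rw [← sum_fib_conj a ω hc]
    unfold fib
    rw [Finset.sum_filter]
    refine Finset.sum_congr rfl fun g _ => ?_
    split_ifs <;> simp
  rw [Finset.sum_congr rfl h2, Finset.sum_const, card_eq a, Finset.card_univ, nsmul_eq_mul]
  have h3 : (Fintype.card Ω : ℂ) ≠ 0 := by
    have : Fintype.card Ω ≠ 0 := (Fintype.card_pos_iff.mpr ⟨a⟩).ne'
    exact_mod_cast this
  push_cast
  field_simp [card_ne_zero (G := G) a]

theorem isClassFunction_perm :
    IsClassFunction G (fun g : G => (Nat.card (MulAction.fixedBy Ω g) : ℂ)) :=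
  IsCharacter.isClassFunction isCharacter_permChar

theorem exists_mult : ∃ m : IrrCharacter G → ℕ, ∀ χ : IrrCharacter G,
    classInner (fun g : G => (Nat.card (MulAction.fixedBy Ω g) : ℂ)) (χ : G → ℂ) = m χ := by
  choose m hm using fun χ : IrrCharacter G =>
    IsCharacter.classInner_nat (isCharacter_permChar (G := G) (X := Ω))
      (IsIrrCharacter.isCharacter χ.2)
  exact ⟨m, hm⟩

theorem mult_triv (a : Ω) :
    classInner (fun g : G => (Nat.card (MulAction.fixedBy Ω g) : ℂ)) (fun _ => 1) = 1 := by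
  rw [classInner_perm a (irr_isClassFunction isIrrCharacter_one)]
  simp only [map_one, Finset.sum_const, nsmul_eq_mul, mul_one]
  exact inv_mul_cancel₀ (card_ne_zero a)

theorem sum_mult_deg {m : IrrCharacter G → ℕ} (hm : ∀ χ : IrrCharacter G,
    classInner (fun g : G => (Nat.card (MulAction.fixedBy Ω g) : ℂ)) (χ : G → ℂ) = m χ) :
    ∑ χ : IrrCharacter G, (m χ : ℂ) * (χ : G → ℂ) 1 = (Fintype.card Ω : ℂ) := by
  have h := congrFun (classFunction_eq_sum (isClassFunction_perm (G := G) (Ω := Ω))) 1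
  simp only [Finset.sum_apply, Pi.smul_apply, smul_eq_mul, hm] at h
  rw [← h, Nat.card_eq_fintype_card]
  congr 1
  rw [← Fintype.card_congr (Equiv.Set.univ Ω)]
  apply Fintype.card_congr
  apply Equiv.setCongr
  ext ω
  simp [MulAction.mem_fixedBy]

theorem sum_fib_eq (a : Ω) (F : G → ℂ) :
    ∑ y ∈ fib G a a, F y = ∑ h : MulAction.stabilizer G a, F h :=
  Finset.sum_subtype _ (fun x => by rw [mem_fib, MulAction.mem_stabilizer_iff]) F

theorem sum_mult_sq (a : Ω) {m : IrrCharacter G → ℕ} (hm : ∀ χ : IrrCharacter G,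
    classInner (fun g : G => (Nat.card (MulAction.fixedBy Ω g) : ℂ)) (χ : G → ℂ) = m χ) :
    ∑ χ : IrrCharacter G, m χ ^ 2 =
      Nat.card (MulAction.orbitRel.Quotient (MulAction.stabilizer G a) Ω) := by
  have h1 := classInner_eq_sum_irr (isClassFunction_perm (G := G) (Ω := Ω))
    (isClassFunction_perm (G := G) (Ω := Ω))
  simp only [hm, Complex.conj_natCast] at h1
  rw [classInner_perm a isClassFunction_perm] at h1
  simp only [Complex.conj_natCast] at h1
  rw [sum_fib_eq a (fun y => (Nat.card (MulAction.fixedBy Ω y) : ℂ))] at h1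
  have h2 := MulAction.sum_card_fixedBy_eq_card_orbits_mul_card_group (MulAction.stabilizer G a) Ω
  have h3 : ∑ h : MulAction.stabilizer G a, (Nat.card (MulAction.fixedBy Ω (h : G)) : ℂ) =
      (Nat.card (MulAction.orbitRel.Quotient (MulAction.stabilizer G a) Ω) : ℂ) *
        ((fib G a a).card : ℂ) := by
    have h4 : (fib G a a).card = Fintype.card (MulAction.stabilizer G a) := by
      rw [Fintype.card_subtype]
      congr 1
    rw [h4, Nat.card_eq_fintype_card, ← Nat.cast_mul, ← h2, Nat.cast_sum]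
    refine Finset.sum_congr rfl fun h _ => ?_
    rw [Nat.card_eq_fintype_card]
    rfl
  rw [h3, mul_comm, mul_assoc, mul_inv_cancel₀ (card_ne_zero a), mul_one] at h1
  have h5 : ((∑ χ : IrrCharacter G, m χ ^ 2 : ℕ) : ℂ) =
      (Nat.card (MulAction.orbitRel.Quotient (MulAction.stabilizer G a) Ω) : ℂ) := by
    rw [h1]
    push_cast
    exact Finset.sum_congr rfl fun χ _ => sq _
  exact_mod_cast h5

omit [MulAction.IsPretransitive G Ω] [Fintype G] in
theorem card_eq_sum_orbits (H : Subgroup G) :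
    Fintype.card Ω = ∑ q : MulAction.orbitRel.Quotient H Ω, Nat.card q.orbit := by
  rw [Fintype.card_congr (MulAction.selfEquivSigmaOrbits' H Ω), Fintype.card_sigma]
  exact Finset.sum_congr rfl fun q _ => Nat.card_eq_fintype_card.symm

end char

end Cfsg.Agent.Lib.Helper23.Orbital
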