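import Mathlib
import Cfsg.Prelude.Def_Blocks
import Cfsg.Prelude.Def_OddOrderLocal
import Cfsg.Agent.Lib.Helper9.Cores
import Cfsg.Agent.Lib.Helper24.BlockConj

/-!
# The `π`-core of a subgroup, as a subgroup of the ambient group
-/

set_option autoImplicit false

namespace Cfsg.Agent.Lib.Helper23.PiKer

open Cfsg Cfsg.Agent.Lib.Helper24

variable {G : Type*} [Group G]

theorem piCoreOf_le (π : Set ℕ) (X : Subgroup G) : piCoreOf π X ≤ X := by
  rintro _ ⟨n, -, rfl⟩
  exact n.2

theorem coe_mem_piCoreOf (π : Set ℕ) (X : Subgroup G) (x : X) :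
    (x : G) ∈ piCoreOf π X ↔ x ∈ piCore π X := by
  constructor
  · rintro ⟨n, hn, h⟩
    have : n = x := Subtype.ext h
    rw [← this]; exact hn
  · intro h
    exact ⟨x, h, rfl⟩

theorem card_piCoreOf (π : Set ℕ) (X : Subgroup G) :
    Nat.card (piCoreOf π X) = Nat.card (piCore π X) :=
  Subgroup.card_map_of_injective X.subtype_injective

theorem piCoreOf_pi [Finite G] (π : Set ℕ) (X : Subgroup G) :
    ∀ q : ℕ, q.Prime → q ∣ Nat.card (piCoreOf π X) → q ∈ π := by
  intro q hq hd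
  rw [card_piCoreOf] at hd
  exact Cfsg.Agent.Lib.Helper9.piCore_pi π X q hq hd

theorem le_normalizer_piCoreOf (π : Set ℕ) (X : Subgroup G) :
    X ≤ Subgroup.normalizer ((piCoreOf π X : Subgroup G) : Set G) :=
  Cfsg.Agent.Lib.Helper9.le_normalizer_map_subtype X (piCore π X)

theorem le_piCoreOf {π : Set ℕ} {L X : Subgroup G} (hLX : L ≤ X)
    (hN : X ≤ Subgroup.normalizer (L : Set G))
    (hπ : ∀ q : ℕ, q.Prime → q ∣ Nat.card L → q ∈ π) : L ≤ piCoreOf π X := by
  have hn : (L.subgroupOf X).Normal := Subgroup.normal_subgroupOf_of_le_normalizer hN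
  have h1 : L.subgroupOf X ≤ piCore π X := by
    apply le_sSup
    refine ⟨hn, ?_⟩
    intro q hq hd
    rw [Nat.card_congr (Subgroup.subgroupOfEquivOfLe hLX).toEquiv] at hd
    exact hπ q hq hd
  intro l hl
  exact ⟨⟨l, hLX hl⟩, h1 hl, rfl⟩

theorem IsConjSub.conj_mem {x : G} {K K' : Subgroup G} (h : IsConjSub x K K') {k : G}
    (hk : k ∈ K) : x * k * x⁻¹ ∈ K' := by
  rw [h]
  have : x⁻¹ * (x * k * x⁻¹) * x = k := by group
  rw [this]; exact hk

theorem map_conj_le_piCoreOf [Finite G] (π : Set ℕ) {x : G} {X X' : Subgroup G}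
    (h : IsConjSub x X X') :
    (piCoreOf π X).map (MulAut.conj x).toMonoidHom ≤ piCoreOf π X' := by
  apply le_piCoreOf
  · rintro _ ⟨l, hl, rfl⟩
    exact IsConjSub.conj_mem h (piCoreOf_le π X hl)
  · intro y hy
    have hy' : x⁻¹ * y * x ∈ X := (h y).mp hy
    have hn := le_normalizer_piCoreOf π X hy'
    rw [Subgroup.mem_normalizer_iff'']
    intro g
    have key : ∀ g : G, g ∈ (piCoreOf π X).map (MulAut.conj x).toMonoidHom ↔
        x⁻¹ * g * x ∈ piCoreOf π X := isConjSub_map x (piCoreOf π X)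
    rw [key, key]
    have h2 := (Subgroup.mem_normalizer_iff''.mp hn) (x⁻¹ * g * x)
    rw [h2]
    have : (x⁻¹ * y * x)⁻¹ * (x⁻¹ * g * x) * (x⁻¹ * y * x) = x⁻¹ * (y⁻¹ * g * y) * x := by group
    rw [this]
  · intro q hq hd
    rw [Subgroup.card_map_of_injective (MulAut.conj x).injective] at hd
    exact piCoreOf_pi π X q hq hd

theorem piCoreOf_conj [Finite G] (π : Set ℕ) {x : G} {X X' : Subgroup G}
    (h : IsConjSub x X X') : IsConjSub x (piCoreOf π X) (piCoreOf π X') := by
  intro g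
  constructor
  · intro hg
    have h1 := map_conj_le_piCoreOf π h.inv
    have h2 : x⁻¹ * g * x ∈ (piCoreOf π X').map (MulAut.conj x⁻¹).toMonoidHom :=
      ⟨g, hg, by simp⟩
    exact h1 h2
  · intro hg
    have h1 := map_conj_le_piCoreOf π h
    have h2 : g ∈ (piCoreOf π X).map (MulAut.conj x).toMonoidHom :=
      ⟨x⁻¹ * g * x, hg, by simp [mul_assoc]⟩
    exact h1 h2

/-- elements normalizing `X` normalize its `π`-core. -/
theorem normalizer_le_normalizer_piCoreOf [Finite G] (π : Set ℕ) (X : Subgroup G) :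
    Subgroup.normalizer (X : Set G) ≤ Subgroup.normalizer ((piCoreOf π X : Subgroup G) : Set G) := by
  intro n hn
  exact (piCoreOf_conj π (isConjSub_of_mem_normalizer hn)).mem_normalizer

end Cfsg.Agent.Lib.Helper23.PiKer
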