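import Mathlib
import Cfsg.Agent.Lib.Helper23.PiKer1
import Cfsg.Agent.Lib.Helper6.NormalIdem
import Cfsg.Agent.Lib.Helper6.DefectOrder
import Cfsg.Agent.Lib.Helper24.BrauerPair4
import Cfsg.Agent.Lib.Helper24.BrauerMax2

/-!
# Normal `p'`-subgroups, kernels of blocks and inclusion of Brauer pairs
-/

set_option autoImplicit false

namespace Cfsg.Agent.Lib.Helper23.PiKer

open Cfsg Cfsg.Agent.Lib.Helper24 Cfsg.Agent.Lib.Helper6 Cfsg.Agent.Lib.Helper2
open scoped ComplexConjugate Classical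

attribute [local instance] irrFintype

section

variable {G : Type*} [Group G] [Fintype G] {M : Ideal AlgInt} {p : ℕ}

/-- `L ∩ K` lies in the kernel of every member of `f`. -/
def KerIn (K : Subgroup G) (f : Set (IrrCharacter K)) (L : Subgroup G) : Prop :=
  ∀ ξ ∈ f, ∀ k : K, (k : G) ∈ L → (ξ : K → ℂ) k = (ξ : K → ℂ) 1

noncomputable def ratio (K L : Subgroup G) : ℂ :=
  (Nat.card (L.subgroupOf K) : ℂ) / (Nat.card L : ℂ)

theorem card_subgroupOf_dvd (K L : Subgroup G) : Nat.card (L.subgroupOf K) ∣ Nat.card L := by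
  have h1 : Nat.card (L.subgroupOf K) = Nat.card ((L.subgroupOf K).map K.subtype) :=
    (Subgroup.card_map_of_injective K.subtype_injective).symm
  rw [h1, Subgroup.subgroupOf_map_subtype]
  exact Subgroup.card_dvd_of_le inf_le_left

theorem ratio_unit (hM : IsPModular p M) (K : Subgroup G) {L : Subgroup G}
    (hL : ¬ p ∣ Nat.card L) : ¬ MemLocalIdeal M (ratio K L) := by
  apply not_memLocalIdeal_natCast_div hM Nat.card_pos.ne' Nat.card_pos.ne'
  rw [Nat.factorization_eq_zero_of_not_dvd hL, Nat.factorization_eq_zero_of_not_dvd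
    (fun h => hL (h.trans (card_subgroupOf_dvd K L)))]

theorem om_res_eSub (K L : Subgroup G) (ξ : K → ℂ) :
    om ξ (fun k : K => eSub L (k : G)) = ratio K L * om ξ (eSub (L.subgroupOf K)) := by
  have h : (fun k : K => eSub L (k : G)) = ratio K L • eSub (L.subgroupOf K) := by
    funext k
    rw [Pi.smul_apply, smul_eq_mul, eSub_apply, eSub_apply, ratio]
    have n1 : (Nat.card (L.subgroupOf K) : ℂ) ≠ 0 := by
      exact_mod_cast (Nat.card_pos (α := L.subgroupOf K)).ne'
    by_cases hk : (k : G) ∈ L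
    · rw [if_pos hk, if_pos (Subgroup.mem_subgroupOf.mpr hk)]
      field_simp
    · rw [if_neg hk, if_neg (fun h => hk (Subgroup.mem_subgroupOf.mp h)), mul_zero]
  rw [h, om_smul]

theorem om_res_eSub_of_ker (K L : Subgroup G) {ξ : K → ℂ} (hξ : IsIrrCharacter K ξ)
    (h : ∀ k : K, (k : G) ∈ L → ξ k = ξ 1) :
    om ξ (fun k : K => eSub L (k : G)) = ratio K L := by
  rw [om_res_eSub, om_eSub_of_ker _ hξ (fun n hn => h n (Subgroup.mem_subgroupOf.mp hn)), mul_one]

theorem om_res_eSub_of_not_ker {K L : Subgroup G} (hN : K ≤ Subgroup.normalizer (L : Set G))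
    {ξ : K → ℂ} (hξ : IsIrrCharacter K ξ) (h : ¬ ∀ k : K, (k : G) ∈ L → ξ k = ξ 1) :
    om ξ (fun k : K => eSub L (k : G)) = 0 := by
  have hn : (L.subgroupOf K).Normal := Subgroup.normal_subgroupOf_of_le_normalizer hN
  rw [om_res_eSub, om_eSub_of_not_ker _ hξ
    (fun h' => h (fun k hk => h' k (Subgroup.mem_subgroupOf.mpr hk))), mul_zero]

theorem brauerOmega_eSub (P L : Subgroup G) (ξ : cz P → ℂ) :
    brauerOmega P (eSub L) ξ = om ξ (fun k : cz P => eSub L (k : G)) := by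
  rw [brauerOmega_eq_om]
  rfl

theorem eSub_conj {L : Subgroup G} {u : G} (hu : u ∈ Subgroup.normalizer (L : Set G)) (g : G) :
    eSub L (u * g * u⁻¹) = eSub L g := by
  rw [eSub_apply, eSub_apply]
  have := Subgroup.mem_normalizer_iff.mp hu g
  simp only [this]

theorem dom2_eSub (hM : IsPModular p M) {P R L : Subgroup G} (hL : ¬ p ∣ Nat.card L)
    (hP : P ≤ Subgroup.normalizer (L : Set G)) (hC : cz R ≤ Subgroup.normalizer (L : Set G)) :
    Dom2 M P R (eSub L) :=
  ⟨memLocalRing_eSub hM L hL, fun u hu g => eSub_conj (hP hu) g, fun c hc g => eSub_conj (hC hc) g⟩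

theorem kerIn_down (hM : IsPModular p M) {P R : Subgroup G} {e : Set (IrrCharacter (cz P))}
    {g : Set (IrrCharacter (cz R))} (h : IsNormalSubpair p M R g P e) {L : Subgroup G}
    (hL : ¬ p ∣ Nat.card L) (hP : P ≤ Subgroup.normalizer (L : Set G))
    (hC : cz R ≤ Subgroup.normalizer (L : Set G)) (hk : KerIn (cz P) e L) : KerIn (cz R) g L := by
  have := IsPModular.isPrime hM
  intro ζ hζ
  by_contra hcon
  obtain ⟨ξ, hξ⟩ := IsPBlock.nonempty h.2.1.2
  have h1 := brauerOmega_of_normalSubpair hM h (dom2_eSub hM hL hP hC) hξ hζ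
  rw [brauerOmega_eSub, brauerOmega_eSub, om_res_eSub_of_ker _ _ ξ.2 (hk ξ hξ),
    om_res_eSub_of_not_ker hC ζ.2 hcon, sub_zero] at h1
  exact ratio_unit hM _ hL h1

theorem kerIn_up (hM : IsPModular p M) {P R : Subgroup G} {e : Set (IrrCharacter (cz P))}
    {g : Set (IrrCharacter (cz R))} (h : IsNormalSubpair p M R g P e) {L : Subgroup G}
    (hL : ¬ p ∣ Nat.card L) (hP : P ≤ Subgroup.normalizer (L : Set G))
    (hC : cz R ≤ Subgroup.normalizer (L : Set G)) (hk : KerIn (cz R) g L) : KerIn (cz P) e L := by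
  have := IsPModular.isPrime hM
  intro ξ hξ
  by_contra hcon
  obtain ⟨ζ, hζ⟩ := IsPBlock.nonempty h.1.2
  have h1 := brauerOmega_of_normalSubpair hM h (dom2_eSub hM hL hP hC) hξ hζ
  rw [brauerOmega_eSub, brauerOmega_eSub, om_res_eSub_of_ker _ _ ζ.2 (hk ζ hζ),
    om_res_eSub_of_not_ker ((cz_anti h.2.2.1).trans hC) ξ.2 hcon, zero_sub] at h1
  have h2 := MemLocalIdeal.neg h1
  rw [neg_neg] at h2
  exact ratio_unit hM _ hL h2

/-- `O_π(C_G(Q))` lies in the kernel of the block of the pair. -/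
def Phi (π : Set ℕ) (a : BrauerPairIdx G) : Prop :=
  KerIn (cz a.1) a.2 (piCoreOf π (cz a.1))

theorem not_dvd_card_piCoreOf (hp : p.Prime) {π : Set ℕ} (hpπ : p ∉ π) (X : Subgroup G) :
    ¬ p ∣ Nat.card (piCoreOf π X) := fun h => hpπ (piCoreOf_pi π X p hp h)

theorem nor_le_normalizer_cz (Q : Subgroup G) :
    Subgroup.normalizer (Q : Set G) ≤ Subgroup.normalizer ((cz Q : Subgroup G) : Set G) :=
  fun _ hn => (isConjSub_cz_of_mem_nor hn).mem_normalizer

theorem le_normalizer_inf {A B X : Subgroup G} (hA : X ≤ Subgroup.normalizer (A : Set G))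
    (hB : X ≤ Subgroup.normalizer (B : Set G)) :
    X ≤ Subgroup.normalizer ((A ⊓ B : Subgroup G) : Set G) := by
  intro x hx
  rw [Subgroup.mem_normalizer_iff]
  intro g
  rw [Subgroup.mem_inf, Subgroup.mem_inf, ← Subgroup.mem_normalizer_iff.mp (hA hx) g,
    ← Subgroup.mem_normalizer_iff.mp (hB hx) g]

/-- a normal `π`-subgroup of a larger group meets `X` inside `O_π(X)`. -/
theorem inf_le_piCoreOf {π : Set ℕ} {L X : Subgroup G} (hN : X ≤ Subgroup.normalizer (L : Set G))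
    (hπ : ∀ q : ℕ, q.Prime → q ∣ Nat.card L → q ∈ π) : L ⊓ X ≤ piCoreOf π X := by
  apply le_piCoreOf inf_le_right (le_normalizer_inf hN Subgroup.le_normalizer)
  intro q hq hd
  exact hπ q hq (hd.trans (Subgroup.card_dvd_of_le inf_le_left))

theorem phi_of_rel (hM : IsPModular p M) {π : Set ℕ} (hpπ : p ∉ π) {a b : BrauerPairIdx G}
    (h : NormalSubpairRel p M a b) (hb : Phi π b) : Phi π a := by
  have h' : IsNormalSubpair p M a.1 a.2 b.1 b.2 := h
  apply kerIn_down hM h' (not_dvd_card_piCoreOf hM.1 hpπ _)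
  · exact h'.2.2.2.1.trans ((nor_le_normalizer_cz a.1).trans
      (normalizer_le_normalizer_piCoreOf π (cz a.1)))
  · exact le_normalizer_piCoreOf π (cz a.1)
  · intro ξ hξ k hk
    apply hb ξ hξ k
    exact inf_le_piCoreOf ((cz_anti h'.2.2.1).trans (le_normalizer_piCoreOf π (cz a.1)))
      (piCoreOf_pi π (cz a.1)) ⟨hk, k.2⟩

theorem phi_of_PLE (hM : IsPModular p M) {π : Set ℕ} (hpπ : p ∉ π) {a b : BrauerPairIdx G}
    (h : PLE p M a b) (hb : Phi π b) : Phi π a := by
  induction h using Relation.ReflTransGen.head_induction_on with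
  | refl => exact hb
  | head h1 _ ih => exact phi_of_rel hM hpπ h1 ih

/-- all `π`-elements of `X` lie in `O_π(X)`. -/
def HallIn (π : Set ℕ) (X : Subgroup G) : Prop :=
  ∀ x ∈ X, (∀ q : ℕ, q.Prime → q ∣ orderOf x → q ∈ π) → x ∈ piCoreOf π X

theorem phi_up_of_rel (hM : IsPModular p M) {π : Set ℕ} (hpπ : p ∉ π) {a b : BrauerPairIdx G}
    (h : NormalSubpairRel p M a b) (ha : Phi π a) (hH : HallIn π (cz a.1)) :
    Phi π b ∧ HallIn π (cz b.1) := by
  have h' : IsNormalSubpair p M a.1 a.2 b.1 b.2 := h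
  have hle : cz b.1 ≤ cz a.1 := cz_anti h'.2.2.1
  have hsub := inf_le_piCoreOf (hle.trans (le_normalizer_piCoreOf π (cz a.1)))
      (piCoreOf_pi π (cz a.1))
  have hup := kerIn_up hM h' (not_dvd_card_piCoreOf hM.1 hpπ _)
    (h'.2.2.2.1.trans ((nor_le_normalizer_cz a.1).trans
      (normalizer_le_normalizer_piCoreOf π (cz a.1)))) (le_normalizer_piCoreOf π (cz a.1)) ha
  constructor
  · intro ξ hξ k hk
    apply hup ξ hξ k
    apply hH _ (hle k.2)
    intro q hq hd
    apply piCoreOf_pi π (cz b.1) q hq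
    exact hd.trans (Subgroup.orderOf_dvd_natCard _ hk)
  · intro x hx hπx
    exact hsub ⟨hH x (hle hx) hπx, hx⟩

theorem phi_up_of_PLE (hM : IsPModular p M) {π : Set ℕ} (hpπ : p ∉ π) {a b : BrauerPairIdx G}
    (h : PLE p M a b) (ha : Phi π a) (hH : HallIn π (cz a.1)) :
    Phi π b ∧ HallIn π (cz b.1) := by
  induction h with
  | refl => exact ⟨ha, hH⟩
  | tail _ h2 ih => exact phi_up_of_rel hM hpπ h2 ih.1 ih.2

end

end Cfsg.Agent.Lib.Helper23.PiKer
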