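import Mathlib
import Cfsg.Agent.Lib.Helper23.PiKer2
import Cfsg.Agent.Lib.Helper24.PCBlock
import Cfsg.Agent.Lib.Helper24.SubPair
import Cfsg.Agent.Lib.Helper24.BrauerMax3
import Cfsg.Agent.Lib.Helper6.CentralProd2

/-!
# Kernels of blocks: the two ends of a chain of Brauer pairs
-/

set_option autoImplicit false

namespace Cfsg.Agent.Lib.Helper23.PiKer

open Cfsg Cfsg.Agent.Lib.Helper24 Cfsg.Agent.Lib.Helper6 Cfsg.Agent.Lib.Helper2
open scoped ComplexConjugate Classical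

attribute [local instance] irrFintype

section

variable {G : Type*} [Group G] [Fintype G] {M : Ideal AlgInt} {p : ℕ}

/-- The Brauer functional at a pair of `B` agrees with the central character of `B` on class
functions. -/
theorem brauerOmega_pair (hM : IsPModular p M) {P : Subgroup G} {e : Set (IrrCharacter (cz P))}
    {B : Set (IrrCharacter G)} (h : IsBrauerPairOf p M B P e) {ξ : IrrCharacter (cz P)}
    (hξ : ξ ∈ e) {χ : IrrCharacter G} (hχ : χ ∈ B) {F : G → ℂ} (hF : IsClassFunction G F)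
    (hS : ∀ g, MemLocalRing M (F g)) :
    MemLocalIdeal M (brauerOmega P F (ξ : cz P → ℂ) - om (χ : G → ℂ) F) := by
  have := IsPModular.isPrime hM
  obtain ⟨B', hB', hall⟩ := exists_block_of_brauerOmega hM h.1.1 ξ.2
  obtain ⟨χ', hχ'⟩ := IsPBlock.nonempty hB'
  have h1 := hall χ' hχ' (blockCoeff B) (by rw [blockCoeff_fun]; exact isClassFunction_coef _)
    (by rw [blockCoeff_fun]; exact IsPBlock.indicator_mem_ZS h.2.1)
  have h2 := h.2.2 ξ hξ
  have h3 : χ' ∈ B := by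
    by_contra hcon
    rw [blockCoeff_fun, om_coef, Set.indicator_of_notMem hcon, sub_zero, ← blockCoeff_fun] at h1
    have h4 := MemLocalIdeal.sub h1 h2
    rw [sub_sub_cancel] at h4
    exact not_memLocalIdeal_one h4
  have h5 : B' = B := IsPBlock.eq_of_mem_of_mem hB' h.2.1 hχ' h3
  exact hall χ (h5 ▸ hχ) F hF hS

theorem phi_cjIdx {π : Set ℕ} (x : G) {a : BrauerPairIdx G} (h : Phi π a) :
    Phi π (cjIdx x a) := by
  intro ξ' hξ' k' hk'
  obtain ⟨ξ, hξ, hc⟩ := hξ'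
  have hcs : IsConjSub x (cz a.1) (cz (a.1.map (MulAut.conj x).toMonoidHom)) :=
    (isConjSub_map x a.1).centralizer
  have h1 : x⁻¹ * (k' : G) * x ∈ piCoreOf π (cz a.1) := (piCoreOf_conj π hcs _).mp hk'
  have h2 : x⁻¹ * (k' : G) * x ∈ cz a.1 := piCoreOf_le _ _ h1
  have h3 := hc ⟨x⁻¹ * (k' : G) * x, h2⟩ k' (by
    show (k' : G) = x * (x⁻¹ * (k' : G) * x) * x⁻¹
    group)
  have h4 := hc 1 1 (by simp)
  exact h3.trans ((h ξ hξ ⟨x⁻¹ * (k' : G) * x, h2⟩ h1).trans h4.symm)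

/-- If `L ≤ C_G(D)` is normalized by `H`, `C_G(D) ≤ H ≤ N_G(D)`, and `ξ` lies under `ψ`, then
`L ≤ ker ψ ↔ L ≤ ker ξ`. -/
theorem ker_iff_of_constituent (hM : IsPModular p M) {D H L : Subgroup G} (hCH : cz D ≤ H)
    (hHN : H ≤ nor D) (hLC : L ≤ cz D) (hL : ¬ p ∣ Nat.card L)
    (hN : H ≤ Subgroup.normalizer (L : Set G)) {ψ : IrrCharacter H} {ξ : IrrCharacter (cz D)}
    (hc : classInner ((ψ : H → ℂ) ∘ Subgroup.inclusion hCH) (ξ : cz D → ℂ) ≠ 0) :
    (∀ h : H, (h : G) ∈ L → (ψ : H → ℂ) h = (ψ : H → ℂ) 1) ↔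
      ∀ k : cz D, (k : G) ∈ L → (ξ : cz D → ℂ) k = (ξ : cz D → ℂ) 1 := by
  have := IsPModular.isPrime hM
  have h1 := om_brMap_eq_brauerOmega hCH hHN (β := eSub L) (fun n hn g => eSub_conj (hN hn) g)
    ψ.2 ξ hc
  have h2 : brMap D H (eSub L) = fun h : H => eSub L (h : G) := by
    funext h
    rw [brMap_apply]
    by_cases hh : (h : G) ∈ Subgroup.centralizer (D : Set G)
    · rw [if_pos hh]
    · rw [if_neg hh, eSub_apply, if_neg (fun h' => hh (hLC h'))]
  rw [h2, brauerOmega_eSub] at h1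
  have hne : ∀ K : Subgroup G, ratio K L ≠ 0 := by
    intro K h0
    apply ratio_unit hM K hL
    rw [h0]; exact memLocalIdeal_zero
  constructor
  · intro hψ
    by_contra hcon
    rw [om_res_eSub_of_ker _ _ ψ.2 hψ, om_res_eSub_of_not_ker (hCH.trans hN) ξ.2 hcon] at h1
    exact hne _ h1
  · intro hξ
    by_contra hcon
    rw [om_res_eSub_of_ker _ _ ξ.2 hξ, om_res_eSub_of_not_ker hN ψ.2 hcon] at h1
    exact hne _ h1.symm

/-- extend a kernel statement from one character to its block. -/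
theorem kerIn_blockOf (hM : IsPModular p M) {K L : Subgroup G} (hL : ¬ p ∣ Nat.card L)
    (hN : K ≤ Subgroup.normalizer (L : Set G)) {ξ : IrrCharacter K}
    (h : ∀ k : K, (k : G) ∈ L → (ξ : K → ℂ) k = (ξ : K → ℂ) 1) :
    KerIn K (blockOf M (ξ : K → ℂ)) L := by
  have hn : (L.subgroupOf K).Normal := Subgroup.normal_subgroupOf_of_le_normalizer hN
  intro ξ' hξ' k hk
  exact ker_of_sameBlock hM (L.subgroupOf K) (fun hd => hL (hd.trans (card_subgroupOf_dvd K L)))
    ξ.2 ξ'.2 hξ' (fun n hn => h n (Subgroup.mem_subgroupOf.mp hn)) k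
    (Subgroup.mem_subgroupOf.mpr hk)

/-- The top of the chain. -/
theorem exists_top_pair (hM : IsPModular p M) {π : Set ℕ} (hpπ : p ∉ π)
    {B : Set (IrrCharacter G)} {D : Subgroup G} (hBD : IsDefectGroup p M B D)
    {B₁ : Set (IrrCharacter (nor D))} (hB₁ : IsInducedBlock M (nor D) B₁ B)
    (hker : ∀ n : nor D, n ∈ piCore π (nor D) → n ∈ blockKer B₁) :
    ∃ e : Set (IrrCharacter (cz D)), IsMaximalBrauerPair p M B D e ∧ Phi π ⟨D, e⟩ := by
  have := IsPModular.isPrime hM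
  have hDp : IsPGroup p D := IsDefectGroup.isPGroup hBD
  obtain ⟨ψ, hψ⟩ := IsPBlock.nonempty hB₁.1
  obtain ⟨ξ, hc⟩ := exists_constituent_incl (centralizer_le_nor D) ψ
  have hpair := isBrauerPairOf_of_induced hM hDp Subgroup.le_normalizer (centralizer_le_nor D)
    le_rfl hB₁ hψ hc
  refine ⟨blockOf M (ξ : cz D → ℂ), isMaximalBrauerPair_of_isDefectGroup hM hpair hBD, ?_⟩
  have hL := not_dvd_card_piCoreOf (G := G) hM.1 hpπ (cz D)
  have hN : nor D ≤ Subgroup.normalizer ((piCoreOf π (cz D) : Subgroup G) : Set G) :=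
    (nor_le_normalizer_cz D).trans (normalizer_le_normalizer_piCoreOf π (cz D))
  apply kerIn_blockOf hM hL (le_normalizer_piCoreOf π (cz D))
  apply (ker_iff_of_constituent hM (centralizer_le_nor D) le_rfl (piCoreOf_le π (cz D)) hL hN
    hc).mp
  intro h hh
  apply hker h _ ψ hψ
  rw [← coe_mem_piCoreOf]
  exact le_piCoreOf ((piCoreOf_le π (cz D)).trans (centralizer_le_nor D)) hN
    (piCoreOf_pi π (cz D)) hh

end

end Cfsg.Agent.Lib.Helper23.PiKer
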