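import Mathlib
import Cfsg.Agent.Lib.Helper23.PiKer3
import Cfsg.Agent.Lib.Helper6.IndBase

/-!
# Kernels of blocks: the bottom of a chain of Brauer pairs, and the descent theorem
-/

set_option autoImplicit false

namespace Cfsg.Agent.Lib.Helper23.PiKer

open Cfsg Cfsg.Agent.Lib.Helper24 Cfsg.Agent.Lib.Helper6 Cfsg.Agent.Lib.Helper2
open scoped ComplexConjugate Classical

attribute [local instance] irrFintype

section

variable {G : Type*} [Group G] [Fintype G] {M : Ideal AlgInt} {p : ℕ}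

/-- A Brauer pair of a block `B₀` of a subgroup `G₀ ≥ C_G(R)` is a Brauer pair of `B₀^G`. -/
theorem isBrauerPairOf_up (hM : IsPModular p M) {G₀ : Subgroup G} {B₀ : Set (IrrCharacter G₀)}
    {B : Set (IrrCharacter G)} (hind : IsInducedBlock M G₀ B₀ B) {R' : Subgroup G₀}
    {R : Subgroup G} (c : IsCopy R' R) (hC : cz R ≤ G₀) {g' : Set (IrrCharacter (cz R'))}
    (h' : IsBrauerPairOf p M B₀ R' g') :
    IsBrauerPairOf p M B R (upSet (c.centralizer hC) g') := by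
  have := IsPModular.isPrime hM
  refine ⟨(isBrauerPair_up_iff c (c.centralizer hC)).mpr h'.1, hind.2.1, ?_⟩
  rw [occurs_up_iff (c.centralizer hC) (blockCoeff B)]
  intro ξ' hξ'
  obtain ⟨χ₀, hχ₀⟩ := IsPBlock.nonempty hind.1
  obtain ⟨χ, hχ⟩ := IsPBlock.nonempty hind.2.1
  have hF : IsClassFunction G (blockCoeff B) := by
    rw [blockCoeff_fun]; exact isClassFunction_coef _
  have hS : ∀ g, MemLocalRing M (blockCoeff B g) := by
    rw [blockCoeff_fun]; exact IsPBlock.indicator_mem_ZS hind.2.1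
  have h1 := brauerOmega_pair hM h' hξ' hχ₀ (F := fun x : G₀ => blockCoeff B x)
    (isClassFunction_res G₀ hF) (fun g => hS g)
  have h2 := om_res_sub_memLocalIdeal G₀ (irr_isClassFunction χ.2) (hind.2.2 χ₀ hχ₀ χ hχ) hF hS
  have h3 : om (χ : G → ℂ) (blockCoeff B) = 1 := by
    rw [blockCoeff_fun, om_coef, Set.indicator_of_mem hχ, Pi.one_apply]
  rw [h3] at h2
  have h4 := MemLocalIdeal.add h1 h2
  rwa [sub_add_sub_cancel] at h4

/-- A normal `p'`-subgroup whose centralizer part lies in the kernel of a Brauer pair of `B`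
lies in the kernel of `B`. -/
theorem ker_of_pair (hM : IsPModular p M) {P : Subgroup G} {e : Set (IrrCharacter (cz P))}
    {B : Set (IrrCharacter G)} (h : IsBrauerPairOf p M B P e) (K : Subgroup G) [K.Normal]
    (hK : ¬ p ∣ Nat.card K) (hk : KerIn (cz P) e K) :
    ∀ χ ∈ B, ∀ x ∈ K, (χ : G → ℂ) x = (χ : G → ℂ) 1 := by
  have := IsPModular.isPrime hM
  intro χ hχ
  by_contra hcon
  obtain ⟨ξ, hξ⟩ := IsPBlock.nonempty h.1.2
  have h1 := brauerOmega_pair hM h hξ hχ (isClassFunction_eSub K) (memLocalRing_eSub hM K hK)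
  rw [brauerOmega_eSub, om_res_eSub_of_ker _ _ ξ.2 (hk ξ hξ), om_eSub_of_not_ker K χ.2 hcon,
    sub_zero] at h1
  exact ratio_unit hM _ hK h1

/-- and conversely. -/
theorem kerIn_of_ker (hM : IsPModular p M) {P : Subgroup G} {e : Set (IrrCharacter (cz P))}
    {B : Set (IrrCharacter G)} (h : IsBrauerPairOf p M B P e) (K : Subgroup G) [hKn : K.Normal]
    (hK : ¬ p ∣ Nat.card K) (hk : ∀ χ ∈ B, ∀ x ∈ K, (χ : G → ℂ) x = (χ : G → ℂ) 1) :
    KerIn (cz P) e K := by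
  have := IsPModular.isPrime hM
  intro ξ hξ
  by_contra hcon
  obtain ⟨χ, hχ⟩ := IsPBlock.nonempty h.2.1
  have h1 := brauerOmega_pair hM h hξ hχ (isClassFunction_eSub K) (memLocalRing_eSub hM K hK)
  have hN : cz P ≤ Subgroup.normalizer (K : Set G) := by
    rw [Subgroup.normalizer_eq_top]; exact le_top
  rw [brauerOmega_eSub, om_res_eSub_of_not_ker hN ξ.2 hcon, om_eSub_of_ker K χ.2 (hk χ hχ),
    zero_sub] at h1
  have h2 := MemLocalIdeal.neg h1
  rw [neg_neg] at h2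
  exact not_memLocalIdeal_one h2

theorem bottom_pair (hM : IsPModular p M) {π : Set ℕ} (hpπ : p ∉ π) {B : Set (IrrCharacter G)}
    {G₀ : Subgroup G} {B₀ : Set (IrrCharacter G₀)} (hB₀ : IsInducedBlock M G₀ B₀ B)
    {D₀ : Subgroup G₀} (hD₀ : IsDefectGroup p M B₀ D₀) (hC : cz (D₀.map G₀.subtype) ≤ G₀) :
    ∃ f : Set (IrrCharacter (cz (D₀.map G₀.subtype))),
      IsBrauerPairOf p M B (D₀.map G₀.subtype) f ∧
      (Phi π ⟨D₀.map G₀.subtype, f⟩ → ∀ x : G₀, x ∈ piCore π G₀ → x ∈ blockKer B₀) := by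
  obtain ⟨β, hβ⟩ := exists_pair_of_defectGroup hM hB₀.1 hD₀
  have c : IsCopy D₀ (D₀.map G₀.subtype) := isCopy_map D₀
  have hc := c.centralizer hC
  refine ⟨upSet hc β, isBrauerPairOf_up hM hB₀ c hC hβ, ?_⟩
  intro hphi x hx χ hχ
  have hK : ¬ p ∣ Nat.card (piCore π G₀) := by
    intro hd
    exact hpπ (Cfsg.Agent.Lib.Helper9.piCore_pi π G₀ p hM.1 hd)
  apply ker_of_pair hM hβ (piCore π G₀) hK _ χ hχ x hx
  have hphi' := (forall_upSet_iff hc (b' := β) (C := fun ξ => ∀ k : cz (D₀.map G₀.subtype),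
    (k : G) ∈ piCoreOf π (cz (D₀.map G₀.subtype)) → ξ k = ξ 1)).mp hphi
  intro ξ' hξ' k' hk'
  have h1 := hphi' ξ' hξ' ((copyIso hc).symm k') (by
    apply inf_le_piCoreOf (hC.trans (le_normalizer_piCoreOf π G₀)) (piCoreOf_pi π G₀)
    refine ⟨?_, ((copyIso hc).symm k').2⟩
    exact (coe_mem_piCoreOf π G₀ (k' : G₀)).mpr hk')
  simpa using h1

theorem phi_of_cjIdx {π : Set ℕ} (x : G) {a : BrauerPairIdx G} (h : Phi π (cjIdx x a)) :
    Phi π a := by
  intro ξ hξ k hk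
  have hcs : IsConjSub x (cz a.1) (cz (a.1.map (MulAut.conj x).toMonoidHom)) :=
    (isConjSub_map x a.1).centralizer
  have hmem : irrMap (conjIso hcs) ξ ∈ conjBlock a.1 x a.2 := by
    refine ⟨ξ, hξ, ?_⟩
    intro c c' hcc
    rw [irrMap_apply]
    have : conjIso hcs c' = c := by
      apply Subtype.ext
      rw [conjIso_coe, hcc]
      group
    rw [this]
  have hk' : x * (k : G) * x⁻¹ ∈ piCoreOf π (cz (a.1.map (MulAut.conj x).toMonoidHom)) :=
    IsConjSub.conj_mem (piCoreOf_conj π hcs) hk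
  have h1 := h _ hmem ⟨x * (k : G) * x⁻¹, piCoreOf_le _ _ hk'⟩ hk'
  have e1 : (irrMap (conjIso hcs) ξ : cz (a.1.map (MulAut.conj x).toMonoidHom) → ℂ)
      ⟨x * (k : G) * x⁻¹, piCoreOf_le _ _ hk'⟩ = (ξ : cz a.1 → ℂ) k := by
    rw [irrMap_apply]
    have : conjIso hcs ⟨x * (k : G) * x⁻¹, piCoreOf_le _ _ hk'⟩ = k := by
      apply Subtype.ext
      rw [conjIso_coe]
      show x⁻¹ * (x * (k : G) * x⁻¹) * x = k
      group
    rw [this]
  have e2 : (irrMap (conjIso hcs) ξ : cz (a.1.map (MulAut.conj x).toMonoidHom) → ℂ) 1 =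
      (ξ : cz a.1 → ℂ) 1 := by
    rw [irrMap_apply, map_one]
  exact e1.symm.trans (h1.trans e2)

/-- **Descent.** -/
theorem descent (hM : IsPModular p M) {π : Set ℕ} (hpπ : p ∉ π) {B : Set (IrrCharacter G)}
    {D : Subgroup G} (hBD : IsDefectGroup p M B D) {B₁ : Set (IrrCharacter (nor D))}
    (hB₁ : IsInducedBlock M (nor D) B₁ B)
    (hker : ∀ n : nor D, n ∈ piCore π (nor D) → n ∈ blockKer B₁)
    {G₀ : Subgroup G} {B₀ : Set (IrrCharacter G₀)} (hB₀ : IsInducedBlock M G₀ B₀ B)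
    {D₀ : Subgroup G₀} (hD₀ : IsDefectGroup p M B₀ D₀) (hC : cz (D₀.map G₀.subtype) ≤ G₀) :
    ∀ x : G₀, x ∈ piCore π G₀ → x ∈ blockKer B₀ := by
  obtain ⟨e, hmax, hphi⟩ := exists_top_pair hM hpπ hBD hB₁ hker
  obtain ⟨f, hf, himp⟩ := bottom_pair hM hpπ hB₀ hD₀ hC
  apply himp
  obtain ⟨x, hx⟩ := exists_conj_le_maximal hM hmax hf
  have h1 : Phi π (cjIdx x ⟨D₀.map G₀.subtype, f⟩) := phi_of_PLE hM hpπ hx hphi
  exact phi_of_cjIdx x h1

end

end Cfsg.Agent.Lib.Helper23.PiKer
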