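import Mathlib
import Cfsg.Agent.Lib.Helper23.PiKer4

/-!
# Kernels of blocks: the ascent theorem
-/

set_option autoImplicit false

namespace Cfsg.Agent.Lib.Helper23.PiKer

open Cfsg Cfsg.Agent.Lib.Helper24 Cfsg.Agent.Lib.Helper6 Cfsg.Agent.Lib.Helper2
open scoped ComplexConjugate Classical

attribute [local instance] irrFintype

section

variable {G : Type*} [Group G] [Fintype G] {M : Ideal AlgInt} {p : ℕ}

theorem hallIn_conj {π : Set ℕ} {x : G} {X X' : Subgroup G} (h : IsConjSub x X X')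
    (hH : HallIn π X) : HallIn π X' := by
  intro y hy hπ
  rw [piCoreOf_conj π h]
  apply hH _ ((h y).mp hy)
  have : orderOf (x⁻¹ * y * x) = orderOf y := by
    have h1 : x⁻¹ * y * x = MulAut.conj x⁻¹ y := by simp
    rw [h1, MulEquiv.orderOf_eq]
  rw [this]
  exact hπ

/-- a normal `p'`-subgroup of `N_G(D)` centralizes the `p`-group `D`. -/
theorem le_cz_of_normal {D K : Subgroup G} (hD : IsPGroup p D) (hp : p.Prime)
    (hK : ¬ p ∣ Nat.card K) (hKN : K ≤ nor D) (hN : nor D ≤ Subgroup.normalizer (K : Set G)) :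
    K ≤ cz D := by
  have : Fact p.Prime := ⟨hp⟩
  have hbot : K ⊓ D = ⊥ := by
    apply disjoint_iff.mp
    apply Subgroup.disjoint_of_coprime_natCard
    obtain ⟨n, hn⟩ := IsPGroup.iff_card.mp hD
    rw [hn]
    exact Nat.Coprime.pow_right n ((Nat.Prime.coprime_iff_not_dvd hp).mpr hK).symm
  intro k hk
  rw [Subgroup.mem_centralizer_iff]
  intro d hd
  have hd' : d ∈ D := hd
  have h1 : k * d * k⁻¹ * d⁻¹ ∈ K ⊓ D := by
    constructor
    · have h2 : d * k⁻¹ * d⁻¹ ∈ K :=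
        (Subgroup.mem_normalizer_iff.mp (hN (Subgroup.le_normalizer hd')) _).mp (K.inv_mem hk)
      have : k * d * k⁻¹ * d⁻¹ = k * (d * k⁻¹ * d⁻¹) := by group
      rw [this]
      exact K.mul_mem hk h2
    · have h2 : k * d * k⁻¹ ∈ D := (Subgroup.mem_normalizer_iff.mp (hKN hk) _).mp hd'
      exact D.mul_mem h2 (D.inv_mem hd')
  rw [hbot, Subgroup.mem_bot] at h1
  have h3 : k * d = d * k := by
    have : k * d * k⁻¹ = d := mul_inv_eq_one.mp h1
    exact mul_inv_eq_iff_eq_mul.mp this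
  exact h3.symm

/-- **Ascent.** -/
theorem ascent (hM : IsPModular p M) {π : Set ℕ} (hpπ : p ∉ π) {B : Set (IrrCharacter G)}
    {D : Subgroup G} (hBD : IsDefectGroup p M B D) {B₁ : Set (IrrCharacter (nor D))}
    (hB₁ : IsInducedBlock M (nor D) B₁ B) {a : BrauerPairIdx G}
    (ha : IsBrauerPairOf p M B a.1 a.2) (hphi : Phi π a) (hH : HallIn π (cz a.1)) :
    ∀ n : nor D, n ∈ piCore π (nor D) → n ∈ blockKer B₁ := by
  have := IsPModular.isPrime hM
  have hDp : IsPGroup p D := IsDefectGroup.isPGroup hBD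
  obtain ⟨ψ, hψ⟩ := IsPBlock.nonempty hB₁.1
  obtain ⟨ξ, hc⟩ := exists_constituent_incl (centralizer_le_nor D) ψ
  have hpair := isBrauerPairOf_of_induced hM hDp Subgroup.le_normalizer (centralizer_le_nor D)
    le_rfl hB₁ hψ hc
  have hmax := isMaximalBrauerPair_of_isDefectGroup hM hpair hBD
  obtain ⟨x, hx⟩ := exists_conj_le_maximal hM hmax ha
  have h1 : Phi π (cjIdx x a) := phi_cjIdx x hphi
  have h2 : HallIn π (cz (cjIdx x a).1) := hallIn_conj (isConjSub_map x a.1).centralizer hH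
  have h3 := (phi_up_of_PLE hM hpπ (a := cjIdx x a) hx h1 h2).1
  -- the core of the normalizer
  set K := piCoreOf π (nor D) with hK
  have hKp : ¬ p ∣ Nat.card K := not_dvd_card_piCoreOf hM.1 hpπ _
  have hKN : K ≤ nor D := piCoreOf_le _ _
  have hN : nor D ≤ Subgroup.normalizer (K : Set G) := le_normalizer_piCoreOf _ _
  have hKC : K ≤ cz D := le_cz_of_normal hDp hM.1 hKp hKN hN
  have hKle : K ≤ piCoreOf π (cz D) :=
    le_piCoreOf hKC ((centralizer_le_nor D).trans hN) (piCoreOf_pi π (nor D))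
  have h4 : ∀ h : nor D, (h : G) ∈ K → (ψ : nor D → ℂ) h = (ψ : nor D → ℂ) 1 := by
    apply (ker_iff_of_constituent hM (centralizer_le_nor D) le_rfl hKC hKp hN hc).mpr
    intro k hk
    exact h3 ξ (mem_blockOf_self ξ) k (hKle hk)
  have h5 := kerIn_blockOf hM hKp hN h4
  rw [← IsPBlock.eq_blockOf hB₁.1 hψ] at h5
  intro n hn χ hχ
  exact h5 χ hχ n ((coe_mem_piCoreOf π (nor D) n).mpr hn)

end

end Cfsg.Agent.Lib.Helper23.PiKer
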