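import Mathlib
import Cfsg.Agent.Lib.Helper23.PiKer4
import Cfsg.Agent.Lib.Helper6.PrincipalSection
import Cfsg.Agent.Lib.Helper6.Vanish
import Cfsg.Agent.Lib.Helper6.InvCols

/-!
# Kernels of blocks: characters are constant on cosets of `O_π(C_G(y))`
-/

set_option autoImplicit false

namespace Cfsg.Agent.Lib.Helper23.PiKer

open Cfsg Cfsg.Agent.Lib.Helper24 Cfsg.Agent.Lib.Helper6 Cfsg.Agent.Lib.Helper2
open scoped ComplexConjugate Classical

attribute [local instance] irrFintype

section

variable {G : Type*} [Group G] [Fintype G] {M : Ideal AlgInt} {p : ℕ}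

theorem coef_mul_of_ker {H : Type*} [Group H] [Fintype H] {b : Set (IrrCharacter H)} {n : H}
    (hn : n ∈ blockKer b) (k : H) :
    coef (b.indicator 1) (k * n) = coef (b.indicator 1) k := by
  rw [coef_apply, coef_apply]
  congr 1
  refine Finset.sum_congr rfl fun ψ _ => ?_
  by_cases hψ : ψ ∈ b
  · rw [char_mul_of_ker (IsIrrCharacter.isCharacter ψ.2) (hn ψ hψ)]
  · rw [Set.indicator_of_notMem hψ, zero_mul, zero_mul]

theorem value_mul [Fact p.Prime] (hM : IsPModular p M) {π : Set ℕ} (hpπ : p ∉ π)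
    {B : Set (IrrCharacter G)} (hB : IsPBlock M B)
    {D : Subgroup G} (hBD : IsDefectGroup p M B D) {B₁ : Set (IrrCharacter (nor D))}
    (hB₁ : IsInducedBlock M (nor D) B₁ B)
    (hker : ∀ n : nor D, n ∈ piCore π (nor D) → n ∈ blockKer B₁) {y : G}
    (hy : ∃ k : ℕ, orderOf y = p ^ k) (hH : HallIn π (cen y)) {χ : IrrCharacter G} (hχ : χ ∈ B)
    {x : G} (hx : x ∈ cen y) (hxπ : ∀ q : ℕ, q.Prime → q ∣ orderOf x → q ∈ π) :
    (χ : G → ℂ) (y * x) = (χ : G → ℂ) y := by
  have := IsPModular.isPrime hM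
  have hp : p.Prime := hM.1
  have hymem : y ∈ cen y := Subgroup.mem_centralizer_singleton_iff.mpr rfl
  have hxy : x * y = y * x := Subgroup.mem_centralizer_singleton_iff.mp hx
  have hxreg : ¬ p ∣ orderOf x := fun h => hpπ (hxπ p hp h)
  have hpp1 : IsPPart p (y * x) y := ⟨x, rfl, hxy.symm, hy, hxreg⟩
  have hpp2 : IsPPart p y y := isPPart_self hp hy
  let y' : cen y := ⟨y, hymem⟩
  let x' : cen y := ⟨x, hx⟩
  have hdelta : (delta : cen y → ℂ) =
      ∑ b ∈ Finset.univ.image (fun ξ : IrrCharacter (cen y) => blockOf M (ξ : cen y → ℂ)),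
        coef (b.indicator 1) := by
    rw [← coef_sum, sum_indicator_blocks (M := M), coef_one']
  have hdec : ∀ h : cen y, (χ : G → ℂ) h =
      ∑ b ∈ Finset.univ.image (fun ξ : IrrCharacter (cen y) => blockOf M (ξ : cen y → ℂ)),
        ∑ k : cen y, coef (b.indicator 1) k * (χ : G → ℂ) ((k : G) * (h : G)) := by
    intro h
    have h1 : (χ : G → ℂ) h =
        ∑ k : cen y, (delta : cen y → ℂ) k * (χ : G → ℂ) ((k : G) * (h : G)) := by
      rw [Finset.sum_eq_single (1 : cen y)]
      · simp [delta_apply]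
      · intro k _ hk
        rw [delta_apply, if_neg hk, zero_mul]
      · intro h'; exact absurd (Finset.mem_univ _) h'
    rw [h1, hdelta]
    simp only [Finset.sum_apply, Finset.sum_mul]
    rw [Finset.sum_comm]
  have e1 := hdec (y' * x')
  have e2 := hdec y'
  have e1' : (χ : G → ℂ) (y * x) = _ := e1
  have e2' : (χ : G → ℂ) y = _ := e2
  rw [e1', e2']
  refine Finset.sum_congr rfl fun b hb => ?_
  obtain ⟨ξ, -, rfl⟩ := Finset.mem_image.mp hb
  have hbb : IsPBlock M (blockOf M (ξ : cen y → ℂ)) := ⟨ξ, rfl⟩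
  obtain ⟨B', hind⟩ := inducedBlockDefined_cen hM hy hbb
  by_cases hBB : B' = B
  · subst hBB
    obtain ⟨D₀, hD₀⟩ := exists_isDefectGroup hM hbb
    have hyD : y' ∈ D₀ := by
      have hn : (Subgroup.zpowers y').Normal := by
        constructor
        intro n hn g
        have hc : g * n = n * g := by
          obtain ⟨i, rfl⟩ := Subgroup.mem_zpowers_iff.mp hn
          have h1 : Commute g y' := by
            apply Subtype.ext
            exact Subgroup.mem_centralizer_singleton_iff.mp g.2
          exact (h1.zpow_right i).eq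
        rw [hc, mul_assoc, mul_inv_cancel, mul_one]
        exact hn
      have hpg : IsPGroup p (Subgroup.zpowers y') := by
        obtain ⟨k, hk⟩ := hy
        apply IsPGroup.of_card (n := k)
        rw [Nat.card_zpowers, ← hk]
        exact Subgroup.orderOf_mk y hymem
      exact normal_le_defectGroup hM hbb hD₀ hn hpg (Subgroup.mem_zpowers y')
    have hC : cz (D₀.map (cen y).subtype) ≤ cen y := by
      intro c hc
      rw [Subgroup.mem_centralizer_singleton_iff]
      exact ((Subgroup.mem_centralizer_iff.mp hc) y ⟨y', hyD, rfl⟩).symm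
    have hdesc := descent hM hpπ hBD hB₁ hker hind hD₀ hC
    have hx' : x'⁻¹ ∈ blockKer (blockOf M (ξ : cen y → ℂ)) := by
      apply hdesc
      apply Subgroup.inv_mem
      rw [← coe_mem_piCoreOf]
      exact hH x hx hxπ
    symm
    refine Fintype.sum_equiv (Equiv.mulRight x'⁻¹) _ _ fun k => ?_
    rw [Equiv.coe_mulRight, coef_mul_of_ker hx']
    have h9 : (k : G) * y = (k : G) * x⁻¹ * (y * x) := by
      rw [← hxy]
      group
    show _ * (χ : G → ℂ) ((k : G) * y) = _ * (χ : G → ℂ) ((k : G) * x⁻¹ * (y * x))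
    rw [← h9]
  · have hχ' : χ ∉ B' := fun h => hBB (IsPBlock.eq_of_mem_of_mem hind.2.1 hB h hχ)
    rw [second_main_idem hM (cen y) hind (y' * x') (by
        intro z' hz'
        rw [IsPPart.unique hp hz' hpp1]) χ hχ',
      second_main_idem hM (cen y) hind y' (by
        intro z' hz'
        rw [IsPPart.unique hp hz' hpp2]) χ hχ']

end

end Cfsg.Agent.Lib.Helper23.PiKer
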