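import Mathlib
import Cfsg.Agent.Lib.Helper23.Basic

set_option autoImplicit false

open scoped Pointwise

namespace Cfsg.Agent.Lib.Helper23

section SelfCent

variable {G : Type*} [Group G] [Finite G] {p : ℕ} {x : G}

theorem sc_zpowers_eq (hp : p.Prime) (hx : orderOf x = p) {y : G} (hy : y ∈ Subgroup.zpowers x)
    (hy1 : y ≠ 1) : Subgroup.zpowers y = Subgroup.zpowers x := by
  apply Subgroup.eq_of_le_of_card_ge (Subgroup.zpowers_le.2 hy)
  rw [Nat.card_zpowers, Nat.card_zpowers, hx]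
  have h1 : orderOf y ∣ p := by
    rw [← hx, ← Nat.card_zpowers x]
    have := orderOf_dvd_natCard (⟨y, hy⟩ : Subgroup.zpowers x)
    rwa [Subgroup.orderOf_mk] at this
  rcases (Nat.dvd_prime hp).1 h1 with h | h
  · exact absurd (orderOf_eq_one_iff.1 h) hy1
  · exact h.ge

theorem sc_orderOf (hp : p.Prime) (hx : orderOf x = p) {y : G} (hy : y ∈ Subgroup.zpowers x)
    (hy1 : y ≠ 1) : orderOf y = p := by
  rw [← Nat.card_zpowers, sc_zpowers_eq hp hx hy hy1, Nat.card_zpowers, hx]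

theorem sc_ne_one (hp : p.Prime) (hx : orderOf x = p) : x ≠ 1 := by
  rintro rfl
  rw [orderOf_one] at hx
  exact hp.one_lt.ne hx

theorem mem_centralizer_zpow {a b : G} (h : a * b = b * a) {y : G} (hy : y ∈ Subgroup.zpowers b) :
    a * y = y * a := by
  obtain ⟨k, rfl⟩ := Subgroup.mem_zpowers_iff.1 hy
  exact (Commute.zpow_right (show Commute a b from h) k)

theorem sc_centralizer (hp : p.Prime) (hx : orderOf x = p)
    (hC : Subgroup.centralizer ({x} : Set G) = Subgroup.zpowers x) {y : G}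
    (hy : y ∈ Subgroup.zpowers x) (hy1 : y ≠ 1) :
    Subgroup.centralizer ({y} : Set G) = Subgroup.zpowers x := by
  have hz := sc_zpowers_eq hp hx hy hy1
  ext g
  rw [← hC, Subgroup.mem_centralizer_singleton_iff, Subgroup.mem_centralizer_singleton_iff]
  constructor
  · intro h
    exact mem_centralizer_zpow h (hz ▸ Subgroup.mem_zpowers x)
  · intro h
    exact mem_centralizer_zpow h hy

/-- `⟨x⟩` is a Sylow `p`-subgroup. -/
theorem sc_sylow [Fact p.Prime] (hx : orderOf x = p)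
    (hC : Subgroup.centralizer ({x} : Set G) = Subgroup.zpowers x) :
    ∃ P : Sylow p G, (P : Subgroup G) = Subgroup.zpowers x := by
  have hp : p.Prime := Fact.out
  obtain ⟨Q, hQ⟩ := (isPGroup_zpowers p x ⟨1, by rw [hx, pow_one]⟩).exists_le_sylow
  refine ⟨Q, le_antisymm ?_ hQ⟩
  have hxQ : x ∈ Q := hQ (Subgroup.mem_zpowers x)
  haveI : Nontrivial Q := ⟨⟨⟨x, hxQ⟩, 1, fun h => sc_ne_one hp hx (congrArg Subtype.val h)⟩⟩
  haveI : Nontrivial (Subgroup.center Q) := Q.2.center_nontrivial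
  obtain ⟨z, hz⟩ := exists_ne (1 : Subgroup.center Q)
  have hz1 : ((z : Q) : G) ≠ 1 := by
    intro h
    apply hz
    ext
    exact h
  have hzc : ∀ y : Q, ((z : Q) : G) * y = y * ((z : Q) : G) := by
    intro y
    have := Subgroup.mem_center_iff.1 z.2 y
    exact (congrArg Subtype.val this).symm
  have hzx : ((z : Q) : G) ∈ Subgroup.zpowers x := by
    rw [← hC, Subgroup.mem_centralizer_singleton_iff]
    exact hzc ⟨x, hxQ⟩
  have hzz := sc_zpowers_eq hp hx hzx hz1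
  intro y hy
  rw [← hC, Subgroup.mem_centralizer_singleton_iff]
  exact mem_centralizer_zpow (hzc ⟨y, hy⟩).symm (hzz ▸ Subgroup.mem_zpowers x)

theorem sc_card_sylow [Fact p.Prime] (hx : orderOf x = p)
    (hC : Subgroup.centralizer ({x} : Set G) = Subgroup.zpowers x) (Q : Sylow p G) :
    Nat.card Q = p := by
  obtain ⟨P, hP⟩ := sc_sylow hx hC
  have h1 : Nat.card P = p := by
    have : Nat.card (P : Subgroup G) = p := by rw [hP, Nat.card_zpowers, hx]
    exact this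
  exact (Nat.card_congr (Sylow.equiv Q P).toEquiv).trans h1

/-- every element of order `p` is conjugate to an element of `⟨x⟩` -/
theorem sc_conj_into [Fact p.Prime] (hx : orderOf x = p)
    (hC : Subgroup.centralizer ({x} : Set G) = Subgroup.zpowers x) (y : G) (hy : orderOf y = p) :
    ∃ g : G, g⁻¹ * y * g ∈ Subgroup.zpowers x := by
  obtain ⟨P, hP⟩ := sc_sylow hx hC
  obtain ⟨Q, hQ⟩ := (isPGroup_zpowers p y ⟨1, by rw [hy, pow_one]⟩).exists_le_sylow
  obtain ⟨g, hg⟩ := MulAction.exists_smul_eq G P Q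
  refine ⟨g, ?_⟩
  have : y ∈ g • P := hg ▸ hQ (Subgroup.mem_zpowers y)
  rw [mem_smul_sylow] at this
  rw [← hP]
  exact this

/-- a normal subgroup of order divisible by `p` contains `x` -/
theorem sc_mem_of_dvd [Fact p.Prime] (hx : orderOf x = p)
    (hC : Subgroup.centralizer ({x} : Set G) = Subgroup.zpowers x) (S : Subgroup G) [S.Normal]
    (hS : p ∣ Nat.card S) : x ∈ S := by
  have hp : p.Prime := Fact.out
  obtain ⟨y, hy⟩ := exists_prime_orderOf_dvd_card' p hS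
  have hy' : orderOf (y : G) = p := by rw [Subgroup.orderOf_coe, hy]
  obtain ⟨g, hg⟩ := sc_conj_into hx hC y hy'
  have h1 : g⁻¹ * y * g ≠ 1 := by
    intro h
    have : (y : G) = 1 := by
      have h2 : g * (g⁻¹ * y * g) * g⁻¹ = g * 1 * g⁻¹ := by rw [h]
      simpa [mul_assoc] using h2
    rw [this, orderOf_one] at hy'
    exact hp.one_lt.ne hy'
  have h2 := sc_zpowers_eq hp hx hg h1
  have h3 : g⁻¹ * y * g ∈ S := by
    have := (inferInstance : S.Normal).conj_mem y y.2 g⁻¹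
    simpa using this
  have h4 : Subgroup.zpowers (g⁻¹ * y * g) ≤ S := Subgroup.zpowers_le.2 h3
  exact h4 (h2 ▸ Subgroup.mem_zpowers x)

theorem sc_not_mem_of_not_dvd (hx : orderOf x = p) (S : Subgroup G)
    (hS : ¬ p ∣ Nat.card S) : x ∉ S := by
  intro h
  apply hS
  rw [← hx]
  have := orderOf_dvd_natCard (⟨x, h⟩ : S)
  rwa [Subgroup.orderOf_mk] at this

theorem sc_inf_eq_bot (hp : p.Prime) (hx : orderOf x = p) (S : Subgroup G)
    (hS : ¬ p ∣ Nat.card S) : S ⊓ Subgroup.zpowers x = ⊥ := by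
  rw [eq_bot_iff]
  rintro y ⟨hyS, hyx⟩
  rw [Subgroup.mem_bot]
  by_contra hy1
  have h1 := sc_zpowers_eq hp hx hyx hy1
  apply sc_not_mem_of_not_dvd hx S hS
  have : Subgroup.zpowers y ≤ S := Subgroup.zpowers_le.2 hyS
  exact this (h1 ▸ Subgroup.mem_zpowers x)

/-- elements of the normalizer of `⟨x⟩` have commutators in `⟨x⟩` -/
theorem sc_normalizer_comm (hp : p.Prime) (hx : orderOf x = p)
    (hC : Subgroup.centralizer ({x} : Set G) = Subgroup.zpowers x) (n₁ n₂ : G)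
    (h₁ : n₁ ∈ Subgroup.normalizer (Subgroup.zpowers x : Set G))
    (h₂ : n₂ ∈ Subgroup.normalizer (Subgroup.zpowers x : Set G)) :
    n₁ * n₂ * n₁⁻¹ * n₂⁻¹ ∈ Subgroup.zpowers x := by
  have ha := (Subgroup.mem_normalizer_iff.1 h₁ x).1 (Subgroup.mem_zpowers x)
  have hb := (Subgroup.mem_normalizer_iff.1 h₂ x).1 (Subgroup.mem_zpowers x)
  obtain ⟨a, ha⟩ := Subgroup.mem_zpowers_iff.1 ha
  obtain ⟨b, hb⟩ := Subgroup.mem_zpowers_iff.1 hb
  have hconj : ∀ (n : G) (k : ℤ), n * x ^ k * n⁻¹ = (n * x * n⁻¹) ^ k := by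
    intro n k
    exact (conj_zpow (a := n) (b := x) (i := k)).symm
  have e1 : (n₁ * n₂) * x * (n₁ * n₂)⁻¹ = x ^ (a * b) := by
    have : (n₁ * n₂) * x * (n₁ * n₂)⁻¹ = n₁ * (n₂ * x * n₂⁻¹) * n₁⁻¹ := by group
    rw [this, ← hb, hconj, ← ha, ← zpow_mul]
  have e2 : (n₂ * n₁) * x * (n₂ * n₁)⁻¹ = x ^ (a * b) := by
    have : (n₂ * n₁) * x * (n₂ * n₁)⁻¹ = n₂ * (n₁ * x * n₁⁻¹) * n₂⁻¹ := by group
    rw [this, ← ha, hconj, ← hb, ← zpow_mul, mul_comm]
  -- v⁻¹ w centralizes x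
  have h3 : (n₂ * n₁)⁻¹ * (n₁ * n₂) ∈ Subgroup.zpowers x := by
    rw [← hC, Subgroup.mem_centralizer_singleton_iff]
    have h4 : (n₁ * n₂) * x * (n₁ * n₂)⁻¹ = (n₂ * n₁) * x * (n₂ * n₁)⁻¹ := by rw [e1, e2]
    generalize n₁ * n₂ = w at h4 ⊢
    generalize n₂ * n₁ = v at h4 ⊢
    have h5 : v⁻¹ * (w * x * w⁻¹) * w = v⁻¹ * (v * x * v⁻¹) * w := by rw [h4]
    simp only [mul_assoc, inv_mul_cancel_left, inv_mul_cancel, mul_one] at h5 ⊢
    exact h5
  have h6 := (Subgroup.mem_normalizer_iff.1 (Subgroup.mul_mem _ h₂ h₁) _).1 h3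
  have h7 : n₂ * n₁ * ((n₂ * n₁)⁻¹ * (n₁ * n₂)) * (n₂ * n₁)⁻¹ = n₁ * n₂ * n₁⁻¹ * n₂⁻¹ := by group
  rwa [h7] at h6

/-- Frattini: if the normal subgroup `S` contains `x`, every element is `n * s`. -/
theorem sc_frattini [Fact p.Prime] (hx : orderOf x = p)
    (hC : Subgroup.centralizer ({x} : Set G) = Subgroup.zpowers x) (S : Subgroup G) [S.Normal]
    (hxS : x ∈ S) (g : G) :
    ∃ n ∈ Subgroup.normalizer (Subgroup.zpowers x : Set G), ∃ s ∈ S, n * s = g := by
  obtain ⟨P, hP⟩ := sc_sylow hx hC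
  have h1 : (P : Subgroup G) ≤ S := by rw [hP]; exact Subgroup.zpowers_le.2 hxS
  have h2 := Sylow.normalizer_sup_eq_top' P h1
  have h3 : g ∈ Subgroup.normalizer (P : Set G) ⊔ S := by rw [h2]; exact Subgroup.mem_top g
  rw [Subgroup.mem_sup_of_normal_right] at h3
  rw [← P.coe_coe, hP] at h3
  exact h3

/-- a normal subgroup containing `x` contains the commutator subgroup -/
theorem sc_commutator_le [Fact p.Prime] (hx : orderOf x = p)
    (hC : Subgroup.centralizer ({x} : Set G) = Subgroup.zpowers x) (S : Subgroup G) [S.Normal]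
    (hxS : x ∈ S) : commutator G ≤ S := by
  have hp : p.Prime := Fact.out
  rw [commutator_def, Subgroup.commutator_le]
  intro g₁ _ g₂ _
  obtain ⟨n₁, hn₁, s₁, hs₁, rfl⟩ := sc_frattini hx hC S hxS g₁
  obtain ⟨n₂, hn₂, s₂, hs₂, rfl⟩ := sc_frattini hx hC S hxS g₂
  rw [← QuotientGroup.eq_one_iff, commutatorElement_def]
  have e1 : ((n₁ * s₁ : G) : G ⧸ S) = (n₁ : G ⧸ S) := by
    rw [QuotientGroup.mk_mul, (QuotientGroup.eq_one_iff s₁).2 hs₁, mul_one]
  have e2 : ((n₂ * s₂ : G) : G ⧸ S) = (n₂ : G ⧸ S) := by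
    rw [QuotientGroup.mk_mul, (QuotientGroup.eq_one_iff s₂).2 hs₂, mul_one]
  simp only [QuotientGroup.mk_mul, QuotientGroup.mk_inv] at e1 e2 ⊢
  rw [e1, e2]
  have h3 := sc_normalizer_comm hp hx hC n₁ n₂ hn₁ hn₂
  have h4 : n₁ * n₂ * n₁⁻¹ * n₂⁻¹ ∈ S := (Subgroup.zpowers_le.2 hxS) h3
  have h5 := (QuotientGroup.eq_one_iff _).2 h4
  simpa only [QuotientGroup.mk_mul, QuotientGroup.mk_inv] using h5

theorem sc_card_mod [Fact p.Prime] (hx : orderOf x = p)
    (hC : Subgroup.centralizer ({x} : Set G) = Subgroup.zpowers x) (S : Subgroup G) [S.Normal]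
    (hS : ¬ p ∣ Nat.card S) : Nat.card S % p = 1 := by
  have hp : p.Prime := Fact.out
  let Z : Subgroup (ConjAct G) := Subgroup.zpowers (ConjAct.toConjAct x)
  have hZ : IsPGroup p Z :=
    isPGroup_zpowers p _ ⟨1, by rw [pow_one, ← hx]; exact (ConjAct.toConjAct.orderOf_eq x)⟩
  have h1 := hZ.card_modEq_card_fixedPoints S
  have h2 : Nat.card (MulAction.fixedPoints Z S) = 1 := by
    rw [Nat.card_eq_one_iff_unique]
    have key : ∀ a : MulAction.fixedPoints Z S, a = ⟨1, fun z => smul_one z⟩ := by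
      intro a
      have h3 := a.2 ⟨ConjAct.toConjAct x, Subgroup.mem_zpowers _⟩
      have h4 : x * ((a : S) : G) * x⁻¹ = ((a : S) : G) := by
        have h3' : ConjAct.toConjAct x • (a : S) = (a : S) := h3
        have := congrArg (Subtype.val) h3'
        rw [ConjAct.Subgroup.val_conj_smul, ConjAct.toConjAct_smul] at this
        exact this
      have h5 : ((a : S) : G) ∈ Subgroup.zpowers x := by
        rw [← hC, Subgroup.mem_centralizer_singleton_iff]
        have h6 : x * ((a : S) : G) * x⁻¹ * x = ((a : S) : G) * x := by rw [h4]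
        simpa using h6.symm
      have h7 : ((a : S) : G) ∈ S ⊓ Subgroup.zpowers x := ⟨(a : S).2, h5⟩
      rw [sc_inf_eq_bot hp hx S hS, Subgroup.mem_bot] at h7
      ext
      exact h7
    exact ⟨⟨fun a b => (key a).trans (key b).symm⟩, ⟨⟨1, fun z => smul_one z⟩⟩⟩
  rw [h2] at h1
  rw [h1, Nat.mod_eq_of_lt hp.one_lt]

theorem sc_inf_normalizer (hp : p.Prime) (hx : orderOf x = p)
    (hC : Subgroup.centralizer ({x} : Set G) = Subgroup.zpowers x) (S : Subgroup G) [hSn : S.Normal]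
    (hS : ¬ p ∣ Nat.card S) : Subgroup.normalizer (Subgroup.zpowers x : Set G) ⊓ S = ⊥ := by
  rw [eq_bot_iff]
  rintro s ⟨hsN, hsS⟩
  have h1 := (Subgroup.mem_normalizer_iff.1 hsN x).1 (Subgroup.mem_zpowers x)
  have h2 : s * x * s⁻¹ * x⁻¹ ∈ S ⊓ Subgroup.zpowers x := by
    refine ⟨?_, Subgroup.mul_mem _ h1 (Subgroup.inv_mem _ (Subgroup.mem_zpowers x))⟩
    have h3 := hSn.conj_mem s⁻¹ (S.inv_mem hsS) x
    have h4 := S.mul_mem hsS h3
    simpa [mul_assoc] using h4
  rw [sc_inf_eq_bot hp hx S hS, Subgroup.mem_bot] at h2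
  have h5 : s ∈ Subgroup.zpowers x := by
    rw [← hC, Subgroup.mem_centralizer_singleton_iff]
    have h6 : s * x * s⁻¹ * x⁻¹ * x * s = 1 * x * s := by rw [h2]
    simpa [mul_assoc] using h6
  have h7 : s ∈ S ⊓ Subgroup.zpowers x := ⟨hsS, h5⟩
  rwa [sc_inf_eq_bot hp hx S hS] at h7

theorem sc_card_subgroups [Fact p.Prime] (hx : orderOf x = p)
    (hC : Subgroup.centralizer ({x} : Set G) = Subgroup.zpowers x) :
    Nat.card {H : Subgroup G // Nat.card H = p} = Nat.card (Sylow p G) := by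
  symm
  apply Nat.card_eq_of_bijective
    (fun Q : Sylow p G => (⟨(Q : Subgroup G), sc_card_sylow hx hC Q⟩ : {H : Subgroup G // Nat.card H = p}))
  constructor
  · intro Q R h
    exact Sylow.ext (congrArg Subtype.val h)
  · rintro ⟨H, hH⟩
    have hpg : IsPGroup p H := IsPGroup.of_card (n := 1) (by rw [hH, pow_one])
    obtain ⟨Q, hQ⟩ := hpg.exists_le_sylow
    refine ⟨Q, ?_⟩
    ext1
    symm
    apply Subgroup.eq_of_le_of_card_ge hQ
    rw [hH]
    exact (sc_card_sylow hx hC Q).le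

theorem sc_card_sylow_eq_index [Fact p.Prime] (hx : orderOf x = p)
    (hC : Subgroup.centralizer ({x} : Set G) = Subgroup.zpowers x) :
    Nat.card (Sylow p G) = (Subgroup.normalizer (Subgroup.zpowers x : Set G)).index := by
  obtain ⟨P, hP⟩ := sc_sylow hx hC
  rw [P.card_eq_index_normalizer, ← P.coe_coe, hP]

theorem sc_card_dvd [Fact p.Prime] (hx : orderOf x = p)
    (hC : Subgroup.centralizer ({x} : Set G) = Subgroup.zpowers x) (S : Subgroup G) [S.Normal]
    (hS : ¬ p ∣ Nat.card S) : Nat.card S ∣ Nat.card (Sylow p G) := by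
  have hp : p.Prime := Fact.out
  rw [sc_card_sylow_eq_index hx hC]
  have h1 := relIndex_dvd_index_of_normal' (Subgroup.normalizer (Subgroup.zpowers x : Set G)) S
  rwa [← Subgroup.inf_relIndex_right, sc_inf_normalizer hp hx hC S hS,
    Subgroup.relIndex_bot_left] at h1

theorem sc_quot_orderOf (hp : p.Prime) (hx : orderOf x = p) (S : Subgroup G) [S.Normal]
    (hS : ¬ p ∣ Nat.card S) : orderOf (QuotientGroup.mk x : G ⧸ S) = p := by
  haveI : Fact p.Prime := ⟨hp⟩
  apply orderOf_eq_prime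
  · rw [← QuotientGroup.mk_pow, ← hx, pow_orderOf_eq_one]
    rfl
  · intro h
    exact sc_not_mem_of_not_dvd hx S hS ((QuotientGroup.eq_one_iff x).1 h)

theorem sc_quot_centralizer [Fact p.Prime] (hx : orderOf x = p)
    (hC : Subgroup.centralizer ({x} : Set G) = Subgroup.zpowers x) (S : Subgroup G) [hSn : S.Normal]
    (hS : ¬ p ∣ Nat.card S) :
    Subgroup.centralizer ({(QuotientGroup.mk x : G ⧸ S)} : Set (G ⧸ S))
      = Subgroup.zpowers (QuotientGroup.mk x : G ⧸ S) := by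
  have hp : p.Prime := Fact.out
  apply le_antisymm
  · intro gb hgb
    obtain ⟨g, rfl⟩ := QuotientGroup.mk_surjective gb
    rw [Subgroup.mem_centralizer_singleton_iff] at hgb
    obtain ⟨P, hP⟩ := sc_sylow hx hC
    let D : Subgroup G := S ⊔ Subgroup.zpowers x
    have hPD : (P : Subgroup G) ≤ D := hP ▸ le_sup_right
    have hgx : g * x * g⁻¹ ∈ D := by
      have h1 : g * x * g⁻¹ * x⁻¹ ∈ S := by
        rw [← QuotientGroup.eq_one_iff]
        simp only [QuotientGroup.mk_mul, QuotientGroup.mk_inv]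
        rw [hgb, mul_assoc ((x : G ⧸ S)), mul_inv_cancel, mul_one, mul_inv_cancel]
      have h2 : g * x * g⁻¹ = (g * x * g⁻¹ * x⁻¹) * x := by group
      rw [h2]
      exact D.mul_mem ((le_sup_left : S ≤ D) h1) ((le_sup_right : _ ≤ D) (Subgroup.mem_zpowers x))
    have hgPD : ((g • P : Sylow p G) : Subgroup G) ≤ D := by
      intro y hy
      have hy' : g⁻¹ * y * g ∈ (P : Subgroup G) := (mem_smul_sylow g y P).1 hy
      rw [hP] at hy'
      obtain ⟨k, hk⟩ := Subgroup.mem_zpowers_iff.1 hy'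
      have h3 : y = (g * x * g⁻¹) ^ k := by
        rw [conj_zpow, hk]; group
      rw [h3]
      exact D.zpow_mem hgx k
    obtain ⟨d, hdD, hd⟩ := sylow_conj_in p D P (g • P) hPD hgPD
    rw [smul_smul, Sylow.smul_eq_iff_mem_normalizer, ← P.coe_coe, hP] at hd
    -- d = s * x ^ i
    obtain ⟨s, hs, y, hy, rfl⟩ := Subgroup.mem_sup_of_normal_left.1 hdD
    obtain ⟨i, rfl⟩ := Subgroup.mem_zpowers_iff.1 hy
    set n := s * x ^ i * g with hn
    have hnb : (n : G ⧸ S) = (x : G ⧸ S) ^ i * (g : G ⧸ S) := by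
      rw [hn, QuotientGroup.mk_mul, QuotientGroup.mk_mul, (QuotientGroup.eq_one_iff s).2 hs, one_mul,
        QuotientGroup.mk_zpow]
    have hncomm : (n : G ⧸ S) * (x : G ⧸ S) = (x : G ⧸ S) * (n : G ⧸ S) := by
      rw [hnb, mul_assoc, hgb, ← mul_assoc, ← mul_assoc, ← zpow_add_one, ← zpow_one_add, add_comm]
    have h4 := (Subgroup.mem_normalizer_iff.1 hd x).1 (Subgroup.mem_zpowers x)
    have h5 : n * x * n⁻¹ * x⁻¹ ∈ S ⊓ Subgroup.zpowers x := by
      refine ⟨?_, Subgroup.mul_mem _ h4 (Subgroup.inv_mem _ (Subgroup.mem_zpowers x))⟩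
      apply (QuotientGroup.eq_one_iff _).1
      simp only [QuotientGroup.mk_mul, QuotientGroup.mk_inv]
      rw [hncomm, mul_assoc ((x : G ⧸ S)), mul_inv_cancel, mul_one, mul_inv_cancel]
    rw [sc_inf_eq_bot hp hx S hS, Subgroup.mem_bot] at h5
    have h6 : n ∈ Subgroup.zpowers x := by
      rw [← hC, Subgroup.mem_centralizer_singleton_iff]
      have h7 : n * x * n⁻¹ * x⁻¹ * x * n = 1 * x * n := by rw [h5]
      simpa [mul_assoc] using h7
    obtain ⟨j, hj⟩ := Subgroup.mem_zpowers_iff.1 h6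
    rw [Subgroup.mem_zpowers_iff]
    refine ⟨j - i, ?_⟩
    have h8 : (g : G ⧸ S) = ((x : G ⧸ S) ^ i)⁻¹ * (n : G ⧸ S) := by rw [hnb]; group
    rw [h8, ← hj, QuotientGroup.mk_zpow, ← zpow_neg, ← zpow_add]
    congr 1
    ring
  · rw [Subgroup.zpowers_le, Subgroup.mem_centralizer_singleton_iff]

end SelfCent

end Cfsg.Agent.Lib.Helper23
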