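import Mathlib
import Cfsg.Agent.Lib.Helper23.SelfCent

set_option autoImplicit false

open scoped Pointwise

namespace Cfsg.Agent.Lib.Helper23

section SelfCentCount

variable {G : Type*} [Group G] [Finite G] {p : ℕ} {x : G}

/-- The `N`-conjugates of `y₀` number `[N : ⟨x⟩]`. -/
theorem sc_orbit_ncard (hp : p.Prime) (hx : orderOf x = p)
    (hC : Subgroup.centralizer ({x} : Set G) = Subgroup.zpowers x) (y₀ : G)
    (hy₀ : y₀ ∈ Subgroup.zpowers x) (hy₁ : y₀ ≠ 1) :
    {y : G | ∃ n ∈ Subgroup.normalizer (Subgroup.zpowers x : Set G), n * y₀ * n⁻¹ = y}.ncard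
      = (Subgroup.zpowers x).relIndex (Subgroup.normalizer (Subgroup.zpowers x : Set G)) := by
  set N := Subgroup.normalizer (Subgroup.zpowers x : Set G) with hN
  letI act : MulAction N G := MulAction.compHom G ((MulAut.conj).comp N.subtype)
  have hsmul : ∀ (n : N) (y : G), n • y = (n : G) * y * (n : G)⁻¹ := fun n y => rfl
  have h1 := MulAction.index_stabilizer N y₀
  have h2 : MulAction.stabilizer N y₀ = (Subgroup.zpowers x).subgroupOf N := by
    ext n
    rw [MulAction.mem_stabilizer_iff, hsmul, Subgroup.mem_subgroupOf,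
      ← sc_centralizer hp hx hC hy₀ hy₁, Subgroup.mem_centralizer_singleton_iff]
    constructor
    · intro h
      have : (n : G) * y₀ * (n : G)⁻¹ * n = y₀ * n := by rw [h]
      simpa using this
    · intro h
      rw [h, mul_assoc, mul_inv_cancel, mul_one]
  have h3 : MulAction.orbit N y₀ = {y : G | ∃ n ∈ N, n * y₀ * n⁻¹ = y} := by
    ext y
    constructor
    · rintro ⟨n, rfl⟩
      exact ⟨n, n.2, rfl⟩
    · rintro ⟨n, hn, rfl⟩
      exact ⟨⟨n, hn⟩, rfl⟩
  rw [← h3, ← h1, h2]
  rfl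

theorem sc_mem_normalizer_of_conj (hp : p.Prime) (hx : orderOf x = p) (g y₀ : G)
    (hy₀ : y₀ ∈ Subgroup.zpowers x) (hy₁ : y₀ ≠ 1) (hg : g * y₀ * g⁻¹ ∈ Subgroup.zpowers x) :
    g ∈ Subgroup.normalizer (Subgroup.zpowers x : Set G) := by
  have hy₂ : g * y₀ * g⁻¹ ≠ 1 := by
    intro h
    apply hy₁
    have : g⁻¹ * (g * y₀ * g⁻¹) * g = g⁻¹ * 1 * g := by rw [h]
    simpa [mul_assoc] using this
  have e1 := sc_zpowers_eq hp hx hy₀ hy₁
  have e2 := sc_zpowers_eq hp hx hg hy₂
  rw [Subgroup.mem_normalizer_iff]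
  intro h
  constructor
  · intro hh
    rw [← e1] at hh
    obtain ⟨k, rfl⟩ := Subgroup.mem_zpowers_iff.1 hh
    rw [← conj_zpow]
    exact Subgroup.zpow_mem _ hg k
  · intro hh
    rw [← e2] at hh
    obtain ⟨k, hk⟩ := Subgroup.mem_zpowers_iff.1 hh
    rw [conj_zpow] at hk
    have : y₀ ^ k = h := by
      have h2 : g⁻¹ * (g * y₀ ^ k * g⁻¹) * g = g⁻¹ * (g * h * g⁻¹) * g := by rw [hk]
      simpa [mul_assoc] using h2
    rw [← this]
    exact Subgroup.zpow_mem _ hy₀ k

/-- number of classes of elements of order `p`, times `[N(⟨x⟩) : ⟨x⟩]`, is `p - 1`. -/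
theorem sc_classes_mul [Fact p.Prime] (hx : orderOf x = p)
    (hC : Subgroup.centralizer ({x} : Set G) = Subgroup.zpowers x) :
    Nat.card {C : ConjClasses G // ∃ g ∈ C.carrier, orderOf g = p} *
      (Subgroup.zpowers x).relIndex (Subgroup.normalizer (Subgroup.zpowers x : Set G)) = p - 1 := by
  classical
  have hp : p.Prime := Fact.out
  haveI := Fintype.ofFinite G
  set e := (Subgroup.zpowers x).relIndex (Subgroup.normalizer (Subgroup.zpowers x : Set G)) with he
  let A : Finset G := Finset.univ.filter (fun y => y ∈ Subgroup.zpowers x ∧ y ≠ 1)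
  let B : Finset (ConjClasses G) := Finset.univ.filter (fun C => ∃ g ∈ C.carrier, orderOf g = p)
  have hA : A.card = p - 1 := by
    have h1 : (A : Set G) = (Subgroup.zpowers x : Set G) \ {1} := by
      ext y
      simp [A]
    have h2 : ((Subgroup.zpowers x : Set G) \ {1}).ncard = (Subgroup.zpowers x : Set G).ncard - 1 :=
      Set.ncard_diff_singleton_of_mem (Subgroup.one_mem _)
    rw [← Set.ncard_coe_finset, h1, h2]
    have h3 : (Subgroup.zpowers x : Set G).ncard = Nat.card (Subgroup.zpowers x) := rfl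
    rw [h3, Nat.card_zpowers, hx]
  have hB : Nat.card {C : ConjClasses G // ∃ g ∈ C.carrier, orderOf g = p} = B.card := by
    rw [Nat.card_eq_fintype_card, Fintype.card_subtype]
  have hmaps : (A : Set G).MapsTo ConjClasses.mk B := by
    intro y hy
    simp only [A, Finset.coe_filter, Finset.mem_univ, true_and, Set.mem_setOf_eq] at hy
    simp only [B, Finset.coe_filter, Finset.mem_univ, true_and, Set.mem_setOf_eq]
    exact ⟨y, ConjClasses.mem_carrier_mk, sc_orderOf hp hx hy.1 hy.2⟩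
  have hfib : ∀ c ∈ B, (A.filter (fun a => ConjClasses.mk a = c)).card = e := by
    intro c hc
    simp only [B, Finset.mem_filter, Finset.mem_univ, true_and] at hc
    obtain ⟨g, hgc, hg⟩ := hc
    obtain ⟨k, hk⟩ := sc_conj_into hx hC g hg
    set y₀ := k⁻¹ * g * k with hy₀
    have hy₁ : y₀ ≠ 1 := by
      intro h
      have : g = 1 := by
        have h2 : k * y₀ * k⁻¹ = k * 1 * k⁻¹ := by rw [h]
        simpa [hy₀, mul_assoc] using h2
      rw [this, orderOf_one] at hg
      exact hp.one_lt.ne hg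
    have hc' : c = ConjClasses.mk y₀ := by
      rw [ConjClasses.mem_carrier_iff_mk_eq] at hgc
      rw [← hgc, ConjClasses.mk_eq_mk_iff_isConj, isConj_iff]
      exact ⟨k⁻¹, by simp [hy₀]⟩
    rw [he, ← sc_orbit_ncard hp hx hC y₀ hk hy₁, ← Set.ncard_coe_finset]
    congr 1
    ext y
    simp only [A, Finset.coe_filter, Finset.mem_filter, Finset.mem_univ, true_and, Set.mem_setOf_eq]
    constructor
    · rintro ⟨⟨hy, hy1⟩, hyc⟩
      rw [hc', ConjClasses.mk_eq_mk_iff_isConj, isConj_comm, isConj_iff] at hyc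
      obtain ⟨n, hn⟩ := hyc
      exact ⟨n, sc_mem_normalizer_of_conj hp hx n y₀ hk hy₁ (hn ▸ hy), hn⟩
    · rintro ⟨n, hn, rfl⟩
      refine ⟨⟨(Subgroup.mem_normalizer_iff.1 hn y₀).1 hk, ?_⟩, ?_⟩
      · intro h
        apply hy₁
        have : n⁻¹ * (n * y₀ * n⁻¹) * n = n⁻¹ * 1 * n := by rw [h]
        simpa [mul_assoc] using this
      · rw [hc', ConjClasses.mk_eq_mk_iff_isConj, isConj_comm, isConj_iff]
        exact ⟨n, rfl⟩
  have hsum := Finset.card_eq_sum_card_fiberwise hmaps
  rw [Finset.sum_congr rfl hfib, Finset.sum_const, smul_eq_mul, hA] at hsum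
  rw [hB, ← hsum]

theorem commutator_le_ker_of_comm {A : Type*} [Group A] (f : G →* A)
    (hA : ∀ a b : A, a * b = b * a) : commutator G ≤ f.ker := by
  rw [commutator_def, Subgroup.commutator_le]
  intro g _ h _
  rw [MonoidHom.mem_ker, commutatorElement_def, map_mul, map_mul, map_mul, map_inv, map_inv,
    hA (f g) (f h), mul_assoc (f h), mul_inv_cancel, mul_one, mul_inv_cancel]

/-- If `N(⟨x⟩) = ⟨x⟩`, then (Burnside) there is a normal `p`-complement. -/
theorem sc_exists_complement [Fact p.Prime] (hx : orderOf x = p)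
    (hC : Subgroup.centralizer ({x} : Set G) = Subgroup.zpowers x)
    (hN : Subgroup.normalizer (Subgroup.zpowers x : Set G) ≤ Subgroup.zpowers x) :
    ∃ K : Subgroup G, K.Normal ∧ ¬ p ∣ Nat.card K ∧ K.index = p ∧ commutator G ≤ K := by
  obtain ⟨P, hP⟩ := sc_sylow hx hC
  have hcomm : ∀ a ∈ Subgroup.zpowers x, ∀ b ∈ Subgroup.zpowers x, a * b = b * a := by
    intro a ha b hb
    obtain ⟨i, rfl⟩ := Subgroup.mem_zpowers_iff.1 ha
    obtain ⟨j, rfl⟩ := Subgroup.mem_zpowers_iff.1 hb
    rw [← zpow_add, ← zpow_add, add_comm]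
  have hPN : Subgroup.normalizer (P : Set G) ≤ Subgroup.centralizer (P : Set G) := by
    rw [← P.coe_coe, hP]
    intro n hn
    rw [Subgroup.mem_centralizer_iff]
    intro y hy
    exact hcomm y hy n (hN hn)
  refine ⟨(MonoidHom.transferSylow P hPN).ker, inferInstance,
    MonoidHom.not_dvd_card_ker_transferSylow P hPN, ?_, ?_⟩
  · rw [(MonoidHom.ker_transferSylow_isComplement' P hPN).symm.index_eq_card]
    exact sc_card_sylow hx hC P
  · apply commutator_le_ker_of_comm
    intro a b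
    apply Subtype.ext
    exact hcomm a (hP ▸ a.2) b (hP ▸ b.2)

theorem sc_index_of_not_dvd [Fact p.Prime] (hx : orderOf x = p)
    (hC : Subgroup.centralizer ({x} : Set G) = Subgroup.zpowers x)
    (h : ¬ p ∣ Nat.card (commutator G)) : (commutator G).index = p := by
  have hp : p.Prime := Fact.out
  have h1 := sc_quot_centralizer hx hC (commutator G) h
  have h2 := sc_quot_orderOf hp hx (commutator G) h
  have h3 : Subgroup.centralizer ({(QuotientGroup.mk x : G ⧸ commutator G)} : Set (G ⧸ commutator G)) = ⊤ := by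
    rw [eq_top_iff]
    intro y _
    rw [Subgroup.mem_centralizer_singleton_iff]
    exact mul_comm (G := Abelianization G) _ _
  rw [Subgroup.index_eq_card, ← Subgroup.card_top, ← h3, h1, Nat.card_zpowers, h2]

theorem sc_mem_commutator (hp : p.Prime) (hx : orderOf x = p)
    (hC : Subgroup.centralizer ({x} : Set G) = Subgroup.zpowers x)
    (hN : ¬ Subgroup.normalizer (Subgroup.zpowers x : Set G) ≤ Subgroup.zpowers x) :
    x ∈ commutator G := by
  obtain ⟨n, hn, hnx⟩ := SetLike.not_le_iff_exists.1 hN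
  have h1 := (Subgroup.mem_normalizer_iff.1 hn x).1 (Subgroup.mem_zpowers x)
  have h2 : n * x * n⁻¹ * x⁻¹ ∈ Subgroup.zpowers x :=
    Subgroup.mul_mem _ h1 (Subgroup.inv_mem _ (Subgroup.mem_zpowers x))
  have h3 : n * x * n⁻¹ * x⁻¹ ≠ 1 := by
    intro h
    apply hnx
    rw [← hC, Subgroup.mem_centralizer_singleton_iff]
    have h7 : n * x * n⁻¹ * x⁻¹ * x * n = 1 * x * n := by rw [h]
    simpa [mul_assoc] using h7
  have h4 : n * x * n⁻¹ * x⁻¹ ∈ commutator G := by
    rw [commutator_def, ← commutatorElement_def]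
    exact Subgroup.commutator_mem_commutator (Subgroup.mem_top n) (Subgroup.mem_top x)
  have h5 := sc_zpowers_eq hp hx h2 h3
  have h6 : Subgroup.zpowers (n * x * n⁻¹ * x⁻¹) ≤ commutator G := Subgroup.zpowers_le.2 h4
  exact h6 (h5 ▸ Subgroup.mem_zpowers x)

theorem sc_normalizer_sup [Fact p.Prime] (hx : orderOf x = p)
    (hC : Subgroup.centralizer ({x} : Set G) = Subgroup.zpowers x) (S : Subgroup G) [S.Normal]
    (hxS : x ∈ S) : Subgroup.normalizer (Subgroup.zpowers x : Set G) ⊔ S = ⊤ := by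
  obtain ⟨P, hP⟩ := sc_sylow hx hC
  have h1 : (P : Subgroup G) ≤ S := by rw [hP]; exact Subgroup.zpowers_le.2 hxS
  have h2 := Sylow.normalizer_sup_eq_top' P h1
  rwa [← P.coe_coe, hP] at h2

theorem sc_index_dvd [Fact p.Prime] (hx : orderOf x = p)
    (hC : Subgroup.centralizer ({x} : Set G) = Subgroup.zpowers x) (S : Subgroup G) [S.Normal]
    (hxS : x ∈ S) : S.index ∣
      (Subgroup.zpowers x).relIndex (Subgroup.normalizer (Subgroup.zpowers x : Set G)) := by
  have h1 := Subgroup.relIndex_sup_right (Subgroup.normalizer (Subgroup.zpowers x : Set G)) S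
  rw [sc_normalizer_sup hx hC S hxS, Subgroup.relIndex_top_right] at h1
  rw [h1]
  exact Subgroup.relIndex_dvd_of_le_left _ (Subgroup.zpowers_le.2 hxS)

/-- `t = p - 1` iff `N(⟨x⟩) = ⟨x⟩`. -/
theorem sc_classes_eq_iff [Fact p.Prime] (hx : orderOf x = p)
    (hC : Subgroup.centralizer ({x} : Set G) = Subgroup.zpowers x) :
    Nat.card {C : ConjClasses G // ∃ g ∈ C.carrier, orderOf g = p} = p - 1 ↔
      Subgroup.normalizer (Subgroup.zpowers x : Set G) ≤ Subgroup.zpowers x := by
  have hp : p.Prime := Fact.out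
  have h1 := sc_classes_mul hx hC
  have hp1 : 0 < p - 1 := by have := hp.one_lt; omega
  rw [← Subgroup.relIndex_eq_one]
  constructor
  · intro h
    rw [h] at h1
    exact Nat.eq_of_mul_eq_mul_left hp1 (by rw [h1, mul_one])
  · intro h
    rw [h, mul_one] at h1
    exact h1

end SelfCentCount

end Cfsg.Agent.Lib.Helper23
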