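import Mathlib
import Cfsg.Agent.Lib.Helper23.SelfCentCount
import Cfsg.Agent.Lib.Helper23.Cores

set_option autoImplicit false

open scoped Pointwise commutatorElement

namespace Cfsg.Agent.Lib.Helper23

section SelfCentStruct

variable {G : Type*} [Group G] [Finite G] {p : ℕ} {x : G}

/-- a normal `p'`-subgroup lies in the commutator subgroup (as `x` acts without fixed points) -/
theorem sc_le_commutator (hp : p.Prime) (hx : orderOf x = p)
    (hC : Subgroup.centralizer ({x} : Set G) = Subgroup.zpowers x) (S : Subgroup G) [hSn : S.Normal]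
    (hS : ¬ p ∣ Nat.card S) : S ≤ commutator G := by
  let f : S → S := fun s => ⟨(s : G)⁻¹ * (x * s * x⁻¹), S.mul_mem (S.inv_mem s.2) (hSn.conj_mem s s.2 x)⟩
  have hinj : Function.Injective f := by
    intro s u h
    have h1 : (s : G)⁻¹ * (x * s * x⁻¹) = (u : G)⁻¹ * (x * u * x⁻¹) := congrArg Subtype.val h
    have h2 : (u : G) * (s : G)⁻¹ ∈ S ⊓ Subgroup.zpowers x := by
      refine ⟨S.mul_mem u.2 (S.inv_mem s.2), ?_⟩
      rw [← hC]
      apply Subgroup.mem_centralizer_singleton_iff.2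
      have h3 : (u : G) * ((s : G)⁻¹ * (x * s * x⁻¹)) * x * (s : G)⁻¹
          = (u : G) * ((u : G)⁻¹ * (x * u * x⁻¹)) * x * (s : G)⁻¹ := by rw [h1]
      simpa [mul_assoc] using h3
    rw [sc_inf_eq_bot hp hx S hS, Subgroup.mem_bot] at h2
    ext
    exact (mul_inv_eq_one.1 h2).symm
  have hsurj := Finite.surjective_of_injective hinj
  intro s hs
  obtain ⟨u, hu⟩ := hsurj ⟨s, hs⟩
  have h1 : (u : G)⁻¹ * (x * u * x⁻¹) = s := congrArg Subtype.val hu
  rw [← h1, commutator_def]
  have h2 : (u : G)⁻¹ * (x * u * x⁻¹) = ⁅(u : G)⁻¹, x⁆ := by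
    rw [commutatorElement_def]; group
  rw [h2]
  exact Subgroup.commutator_mem_commutator (Subgroup.mem_top _) (Subgroup.mem_top _)

theorem sc_subgroup_orderOf (hx : orderOf x = p) (H : Subgroup G) (hxH : x ∈ H) :
    orderOf (⟨x, hxH⟩ : H) = p := by
  rw [← hx, ← Subgroup.orderOf_coe]

theorem sc_subgroup_centralizer
    (hC : Subgroup.centralizer ({x} : Set G) = Subgroup.zpowers x) (H : Subgroup G) (hxH : x ∈ H) :
    Subgroup.centralizer ({(⟨x, hxH⟩ : H)} : Set H) = Subgroup.zpowers (⟨x, hxH⟩ : H) := by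
  ext y
  rw [Subgroup.mem_centralizer_singleton_iff]
  constructor
  · intro h
    have h1 : (y : G) ∈ Subgroup.zpowers x := by
      rw [← hC, Subgroup.mem_centralizer_singleton_iff]
      exact congrArg Subtype.val h
    obtain ⟨k, hk⟩ := Subgroup.mem_zpowers_iff.1 h1
    rw [Subgroup.mem_zpowers_iff]
    exact ⟨k, Subtype.ext (by simpa using hk)⟩
  · intro h
    obtain ⟨k, rfl⟩ := Subgroup.mem_zpowers_iff.1 h
    rw [← zpow_add_one, ← zpow_one_add, add_comm]

/-- Let `D` be a normal subgroup of `G` containing `x`, with `D ≤` every normal subgroup of `G`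
containing `x`. A normal subgroup `M` of `D` of order divisible by `p` is all of `D`. -/
theorem sc_normal_of_dvd [Fact p.Prime] (hx : orderOf x = p)
    (hC : Subgroup.centralizer ({x} : Set G) = Subgroup.zpowers x) (D : Subgroup G) [hD : D.Normal]
    (hxD : x ∈ D) (hmin : ∀ L : Subgroup G, L.Normal → x ∈ L → D ≤ L)
    (M : Subgroup D) [hM : M.Normal] (hpM : p ∣ Nat.card M) : M = ⊤ := by
  have hx' := sc_subgroup_orderOf hx D hxD
  have hC' := sc_subgroup_centralizer hC D hxD
  have hxM : (⟨x, hxD⟩ : D) ∈ M := sc_mem_of_dvd hx' hC' M hpM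
  have hL : Subgroup.normalClosure ({x} : Set G) ≤ M.map D.subtype := by
    unfold Subgroup.normalClosure
    rw [Subgroup.closure_le]
    intro y hy
    rw [Group.mem_conjugatesOfSet_iff] at hy
    obtain ⟨a, ha, hay⟩ := hy
    rw [Set.mem_singleton_iff] at ha
    subst ha
    obtain ⟨g, hg⟩ := isConj_iff.1 hay
    have hyD : y ∈ D := hg ▸ hD.conj_mem a hxD g
    have hyo : orderOf (⟨y, hyD⟩ : D) = p := by
      rw [← Subgroup.orderOf_coe, ← hx]
      exact (SemiconjBy.orderOf_eq g (x := a) (y := y) (by rw [← hg]; simp [SemiconjBy])).symm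
    obtain ⟨h, hh⟩ := sc_conj_into hx' hC' _ hyo
    have h1 : h⁻¹ * (⟨y, hyD⟩ : D) * h ∈ M := (Subgroup.zpowers_le.2 hxM) hh
    have h2 := hM.conj_mem _ h1 h
    have h3 : h * (h⁻¹ * (⟨y, hyD⟩ : D) * h) * h⁻¹ = ⟨y, hyD⟩ := by group
    rw [h3] at h2
    exact ⟨⟨y, hyD⟩, h2, rfl⟩
  have h4 := hmin (Subgroup.normalClosure ({x} : Set G)) Subgroup.normalClosure_normal
    (Subgroup.subset_normalClosure (Set.mem_singleton x))
  rw [eq_top_iff]
  intro d _
  obtain ⟨d', hd', hdd⟩ := hL (h4 d.2)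
  have : d' = d := Subtype.ext hdd
  exact this ▸ hd'

/-- A normal `p'`-subgroup of a normal subgroup `D` of `G` lies in `O_{p'}(G)`. -/
theorem normal_normal_le_pPrimeCore (hp : p.Prime) (D : Subgroup G) [hD : D.Normal]
    (M : Subgroup D) [hM : M.Normal] (hpM : ¬ p ∣ Nat.card M) :
    M.map D.subtype ≤ Cfsg.pPrimeCore p G := by
  have h1 : M ≤ Cfsg.pPrimeCore p D := le_pPrimeCore' hp hM hpM
  haveI := pPrimeCore_characteristic p D
  have h2 : ((Cfsg.pPrimeCore p D).map D.subtype).Normal := inferInstance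
  have h3 : ¬ p ∣ Nat.card ((Cfsg.pPrimeCore p D).map D.subtype) := by
    rw [Subgroup.card_map_of_injective (Subgroup.subtype_injective D)]
    exact pPrimeCore_not_dvd p hp D
  exact (Subgroup.map_mono h1).trans (le_pPrimeCore' hp h2 h3)

theorem sc_simple [Fact p.Prime] (hx : orderOf x = p)
    (hC : Subgroup.centralizer ({x} : Set G) = Subgroup.zpowers x)
    (hN : ¬ Subgroup.normalizer (Subgroup.zpowers x : Set G) ≤ Subgroup.zpowers x)
    (h : ((Cfsg.pPrimeCore p G).subgroupOf (commutator G)).Normal) :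
    IsSimpleGroup (↥(commutator G) ⧸ (Cfsg.pPrimeCore p G).subgroupOf (commutator G)) := by
  have hp : p.Prime := Fact.out
  have hxD := sc_mem_commutator hp hx hC hN
  have hS := pPrimeCore_not_dvd p hp G
  have hxS : x ∉ Cfsg.pPrimeCore p G := sc_not_mem_of_not_dvd hx _ hS
  haveI : Nontrivial (↥(commutator G) ⧸ (Cfsg.pPrimeCore p G).subgroupOf (commutator G)) := by
    refine ⟨⟨QuotientGroup.mk ⟨x, hxD⟩, 1, ?_⟩⟩
    intro h1
    rw [QuotientGroup.eq_one_iff, Subgroup.mem_subgroupOf] at h1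
    exact hxS h1
  refine ⟨fun Mb hMb => ?_⟩
  let M : Subgroup (commutator G) := Mb.comap (QuotientGroup.mk' _)
  haveI hMn : M.Normal := hMb.comap _
  have hMb' : Mb = M.map (QuotientGroup.mk' _) :=
    (Subgroup.map_comap_eq_self_of_surjective (QuotientGroup.mk'_surjective _) Mb).symm
  by_cases hpM : p ∣ Nat.card M
  · right
    have := sc_normal_of_dvd hx hC (commutator G) hxD
      (fun L hL hxL => by haveI := hL; exact sc_commutator_le hx hC L hxL) M hpM
    rw [hMb', this, ← MonoidHom.range_eq_map, MonoidHom.range_eq_top]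
    exact QuotientGroup.mk'_surjective _
  · left
    have h1 := normal_normal_le_pPrimeCore hp (commutator G) M hpM
    rw [hMb', eq_bot_iff]
    rintro _ ⟨m, hm, rfl⟩
    rw [Subgroup.mem_bot]
    apply (QuotientGroup.eq_one_iff _).2
    rw [Subgroup.mem_subgroupOf]
    exact h1 ⟨m, hm, rfl⟩

end SelfCentStruct

end Cfsg.Agent.Lib.Helper23
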