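import Mathlib
import Cfsg.Prelude.Def_Blocks
import Cfsg.Prelude.Def_BlockRank
import Cfsg.Agent.Lib.Helper6.RegSum
import Cfsg.Agent.Lib.Helper6.Height
import Cfsg.Agent.Lib.Helper6.BrauerHom
import Cfsg.Agent.Lib.Helper6.SecondMain
import Cfsg.Agent.S0923

set_option autoImplicit false

namespace Cfsg.Agent.Lib.Helper23.Subsection

open Cfsg Cfsg.Agent.Lib.Helper2 Cfsg.Agent.Lib.Helper6
open scoped ComplexConjugate Classical

attribute [local instance] irrFintype

section basic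

variable {G : Type*} [Group G] [Fintype G]

theorem blockPart_eq_bPart (B : Set (IrrCharacter G)) (φ : G → ℂ) :
    blockPart B φ = bPart B φ := by
  ext g
  have h2 : blockPart B φ g = ∑ᶠ ξ ∈ B, @classInner G _ (Fintype.ofFinite G) φ (ξ : G → ℂ) *
        (ξ : G → ℂ) g := rfl
  have h3 : (Fintype.ofFinite G) = ‹Fintype G› := Subsingleton.elim _ _
  rw [h2, h3, finsum_mem_eq_sum_indicator]
  simp only [bPart, Finset.sum_apply, Pi.smul_apply, smul_eq_mul]
  refine Finset.sum_congr rfl fun ξ _ => by ring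

/-- the shifted restriction `c ↦ χ (x c)` -/
def sh (x : G) (C : Subgroup G) (χ : G → ℂ) : C → ℂ := fun c => χ (x * (c : G))

variable {x : G} {C : Subgroup G} [Fintype C]

theorem mem_of_eq (hC : C = Subgroup.centralizer ({x} : Set G)) : x ∈ C := by
  rw [hC]; exact Subgroup.mem_centralizer_singleton_iff.mpr rfl

theorem mem_center_of_eq (hC : C = Subgroup.centralizer ({x} : Set G)) :
    (⟨x, mem_of_eq hC⟩ : C) ∈ Subgroup.center C := by
  rw [Subgroup.mem_center_iff]
  intro c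
  apply Subtype.ext
  exact (Subgroup.mem_centralizer_singleton_iff.mp (hC ▸ c.2))

theorem sh_eq_sum (hC : C = Subgroup.centralizer ({x} : Set G)) {χ : G → ℂ}
    (hχ : IsClassFunction G χ) :
    sh x C χ = ∑ ξ : IrrCharacter C,
      (classInner (fun c : C => χ c) (ξ : C → ℂ) *
        centralChar (ξ : C → ℂ) ⟨x, mem_of_eq hC⟩) • (ξ : C → ℂ) := by
  ext c
  set θ : C → ℂ := fun c => χ c with hθ
  have hθcl : IsClassFunction C θ := isClassFunction_res C hχ
  have h1 : sh x C χ c = θ (⟨x, mem_of_eq hC⟩ * c) := rfl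
  rw [h1]
  conv_lhs => rw [classFunction_eq_sum hθcl]
  simp only [Finset.sum_apply, Pi.smul_apply, smul_eq_mul]
  refine Finset.sum_congr rfl fun ξ _ => ?_
  rw [irr_central_mul ξ.2 (mem_center_of_eq hC)]
  ring

theorem classInner_sh (hC : C = Subgroup.centralizer ({x} : Set G)) {χ : G → ℂ}
    (hχ : IsClassFunction G χ) (ξ : IrrCharacter C) :
    classInner (sh x C χ) (ξ : C → ℂ) = classInner (fun c : C => χ c) (ξ : C → ℂ) *
        centralChar (ξ : C → ℂ) ⟨x, mem_of_eq hC⟩ := by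
  rw [sh_eq_sum hC hχ, classInner_sum_irr_left]

theorem centralChar_pow_eq_one (hC : C = Subgroup.centralizer ({x} : Set G)) {n : ℕ}
    (hx : x ^ n = 1) (ξ : IrrCharacter C) :
    centralChar (ξ : C → ℂ) ⟨x, mem_of_eq hC⟩ ^ n = 1 := by
  have h1 := centralChar_pow_of_central ξ.2 (mem_center_of_eq hC) n
  have h2 : (⟨x, mem_of_eq hC⟩ : C) ^ n = 1 := Subtype.ext (by simpa using hx)
  rw [h2] at h1
  have h0 := irr_one_ne_zero ξ.2
  have : centralChar (ξ : C → ℂ) ⟨x, mem_of_eq hC⟩ ^ n * (ξ : C → ℂ) 1 = 1 * (ξ : C → ℂ) 1 := by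
    rw [← h1, one_mul]
  exact mul_right_cancel₀ h0 this

end basic

section nonvanishing

variable {G : Type*} [Group G] [Fintype G] {M : Ideal AlgInt} {p : ℕ}
variable {x : G} {C : Subgroup G} [Fintype C]

/-- height zero characters have nonvanishing contribution to every subsection of their block -/
theorem exists_bPart_sh_ne_zero [Fact p.Prime] (hM : IsPModular p M)
    (hC : C = Subgroup.centralizer ({x} : Set G)) {k : ℕ} (hx : orderOf x = p ^ k)
    {b : Set (IrrCharacter C)} {B : Set (IrrCharacter G)} (hind : IsInducedBlock M C b B)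
    {χ : IrrCharacter G} (hχ : χ ∈ B) (h0 : blockHeight p B (χ : G → ℂ) = 0) :
    ∃ y : C, ¬ p ∣ orderOf y ∧ bPart b (sh x C (χ : G → ℂ)) y ≠ 0 := by
  have := IsPModular.isPrime hM
  obtain ⟨hb, hB, hcong⟩ := hind
  have hcl := isClassFunction_creg (p := p) (irr_isClassFunction χ.2)
  have hS := memLocalRing_creg (M := M) (p := p) (IsIrrCharacter.isCharacter χ.2)
  obtain ⟨ξ₀, hξ₀⟩ := IsPBlock.nonempty hb
  have h1 := om_res_sub_memLocalIdeal C (irr_isClassFunction χ.2) (hcong ξ₀ hξ₀ χ hχ) hcl hS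
  have h2 : ¬ MemLocalIdeal M (om (ξ₀ : C → ℂ) (fun h : C => creg p (χ : G → ℂ) (h : G))) :=
    fun h => not_memLocalIdeal_om_creg hM hB hχ h0 ((memLocalIdeal_congr h1).mp h)
  have hchar : IsCharacter C (fun h : C => (χ : G → ℂ) h) :=
    IsCharacter.restrict _ (IsIrrCharacter.isCharacter χ.2)
  have hn : ∀ ξ : IrrCharacter C, ∃ n : ℕ,
      classInner (fun h : C => (χ : G → ℂ) h) (ξ : C → ℂ) = n := fun ξ =>
    IsCharacter.classInner_nat hchar (IsIrrCharacter.isCharacter ξ.2)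
  choose n hn using hn
  have h3 : (fun h : C => creg p (χ : G → ℂ) (h : G)) =
      ∑ ξ : IrrCharacter C, (n ξ : ℂ) • creg p (ξ : C → ℂ) := by
    rw [creg_res]
    have h4 := classFunction_eq_sum (IsCharacter.isClassFunction hchar)
    have h5 : (fun h : C => conj ((χ : G → ℂ) h)) =
        ∑ ξ : IrrCharacter C, (n ξ : ℂ) • (fun h : C => conj ((ξ : C → ℂ) h)) := by
      ext h
      have h6 := congrFun h4 h
      simp only [Finset.sum_apply, Pi.smul_apply, smul_eq_mul, hn] at h6 ⊢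
      rw [h6, map_sum]
      refine Finset.sum_congr rfl fun ξ _ => ?_
      rw [map_mul, Complex.conj_natCast]
    rw [creg, h5, regPart_sum]
    refine Finset.sum_congr rfl fun ξ _ => ?_
    rw [regPart_smul, creg]
  by_contra hcon
  push Not at hcon
  set w : IrrCharacter C → ℂ := fun ξ => centralChar (ξ : C → ℂ) ⟨x, mem_of_eq hC⟩ with hw
  have hT : ∑ ξ : IrrCharacter C, (b.indicator 1 ξ * ((n ξ : ℂ) * conj (w ξ))) *
      om (ξ₀ : C → ℂ) (creg p (ξ : C → ℂ)) = 0 := by
    have h4 : ∑ ξ : IrrCharacter C, (b.indicator 1 ξ * ((n ξ : ℂ) * conj (w ξ))) •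
        creg p (ξ : C → ℂ) = 0 := by
      ext y
      simp only [Finset.sum_apply, Pi.smul_apply, smul_eq_mul, Pi.zero_apply]
      by_cases hy : p ∣ orderOf y
      · apply Finset.sum_eq_zero
        intro ξ _
        rw [creg, regPart_of_dvd _ hy, mul_zero]
      · have h5 := congrArg conj (hcon y hy)
        rw [map_zero] at h5
        rw [← h5]
        simp only [bPart, Finset.sum_apply, Pi.smul_apply, smul_eq_mul, map_sum, map_mul]
        refine Finset.sum_congr rfl fun ξ _ => ?_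
        rw [creg, regPart_of_not_dvd _ hy, classInner_sh hC (irr_isClassFunction χ.2), hn]
        by_cases hξ : ξ ∈ b
        · rw [Set.indicator_of_mem hξ]
          simp [hw]
        · rw [Set.indicator_of_notMem hξ]
          simp
    have h6 := congrArg (om (ξ₀ : C → ℂ)) h4
    rw [om_sum] at h6
    simp only [om_smul] at h6
    rw [h6]
    simp [om]
  apply h2
  rw [h3, om_sum]
  have h7 : ∑ ξ : IrrCharacter C, om (ξ₀ : C → ℂ) ((n ξ : ℂ) • creg p (ξ : C → ℂ)) =
      ∑ ξ : IrrCharacter C, (om (ξ₀ : C → ℂ) ((n ξ : ℂ) • creg p (ξ : C → ℂ)) -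
        (b.indicator 1 ξ * ((n ξ : ℂ) * conj (w ξ))) * om (ξ₀ : C → ℂ) (creg p (ξ : C → ℂ))) := by
    rw [Finset.sum_sub_distrib, hT, sub_zero]
  rw [h7]
  refine MemLocalIdeal.sum _ fun ξ _ => ?_
  rw [om_smul]
  have hSξ : MemLocalRing M (om (ξ₀ : C → ℂ) (creg p (ξ : C → ℂ))) :=
    om_memLocalRing ξ₀.2 (isClassFunction_creg (irr_isClassFunction ξ.2))
      (memLocalRing_creg (IsIrrCharacter.isCharacter ξ.2))
  by_cases hξ : ξ ∈ b
  · rw [Set.indicator_of_mem hξ]
    have h8 : (n ξ : ℂ) * om (ξ₀ : C → ℂ) (creg p (ξ : C → ℂ)) -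
        (1 : IrrCharacter C → ℂ) ξ * ((n ξ : ℂ) * conj (w ξ)) * om (ξ₀ : C → ℂ) (creg p (ξ : C → ℂ))
        = -((conj (w ξ) - 1) * ((n ξ : ℂ) * om (ξ₀ : C → ℂ) (creg p (ξ : C → ℂ)))) := by
      simp only [Pi.one_apply]
      ring
    rw [h8]
    apply MemLocalIdeal.neg
    apply MemLocalIdeal.mul_right _ (MemLocalRing.mul (memLocalRing_natCast _) hSξ)
    apply sub_one_memLocalIdeal_of_pow_eq_one hM (k := k)
    rw [← map_pow, hw]
    simp only
    rw [centralChar_pow_eq_one hC (by rw [← hx]; exact pow_orderOf_eq_one x), map_one]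
  · rw [om_creg_eq_zero' hM hb hξ₀ hξ, mul_zero, mul_zero, sub_zero]
    exact memLocalIdeal_zero

end nonvanishing

end Cfsg.Agent.Lib.Helper23.Subsection
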